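/-
The orbits of the stabiliser of a quartet on the quartets.
-/
import Cfsg.Agent.Lib.M24.QuartetStab
import Cfsg.Agent.Lib.M24.QuartetOrbData

set_option autoImplicit false

namespace Cfsg.Agent.Lib.M24

open Cfsg Cfsg.Agent.Lib.Golay Finset MulAction
open scoped Pointwise

lemma qF_eq_of_sameF {a b : List ℕ} (h : sameF a b = true) : qF a = qF b := by
  have h' : (allL (fun m => inL m b) a && allL (fun m => inL m a) b) = true := h
  rw [Bool.and_eq_true] at h'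
  ext t
  rw [mem_qF, mem_qF]
  constructor
  · rintro ⟨m, hm, rfl⟩
    exact ⟨m, inL_iff.1 (allL_spec h'.1 m hm), rfl⟩
  · rintro ⟨m, hm, rfl⟩
    exact ⟨m, inL_iff.1 (allL_spec h'.2 m hm), rfl⟩

lemma T_of_list {p : ℕ × ℕ} (hp : p ∈ LS) {g : Equiv.Perm GolayPt} (ha : Act p.1 g) :
    ∀ m, g • finOf m = finOf (pimgT (mkTab p.1) m) := by
  have h1 := allL_spec LS_in p hp
  have h1' : (genOK p.1 p.2 && allL (fun m => Nat.beq (pimgT (mkTab p.1) m) m) [d0]) = true := h1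
  rw [Bool.and_eq_true] at h1'
  exact smul_finOf_of_act ha (tabOK_mkTab_of_genOK h1'.1)

/-- The orbit from the checks. -/
theorem orbit_QS_eq {x : List ℕ} {O : List (List ℕ)} (hc : orbClosed x O = true) (hr : orbReached x O = true) :
    orbit QS (qF x) = qF '' {y | y ∈ O} := by
  ext Y
  constructor
  · rintro ⟨⟨g, hg⟩, rfl⟩
    obtain ⟨p, hp, ha⟩ := list_of_QS hg
    have h1 := allL_spec hc p hp
    rw [forceN_eq] at h1
    obtain ⟨y, hy, hs⟩ := List.any_eq_true.1 h1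
    refine ⟨y, hy, ?_⟩
    show qF y = (g : Equiv.Perm GolayPt) • qF x
    rw [smul_qF (T_of_list hp ha), qF_eq_of_sameF hs]
  · rintro ⟨y, hy, rfl⟩
    have h1 := allL_spec hr y hy
    obtain ⟨p, hp, hs⟩ := List.any_eq_true.1 h1
    rw [forceN_eq] at hs
    obtain ⟨g, hg, ha⟩ := QS_of_list hp
    refine ⟨⟨g, hg⟩, ?_⟩
    show (g : Equiv.Perm GolayPt) • qF x = qF y
    rw [smul_qF (T_of_list hp ha), qF_eq_of_sameF hs]

lemma sub_quartL {O : List (List ℕ)} (h : allL (fun q => quartL.any (fun q' => eqL q q')) O = true) :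
    ∀ y ∈ O, y ∈ quartL := by
  intro y hy
  obtain ⟨q, hq, e⟩ := List.any_eq_true.1 (allL_spec h y hy)
  rw [eqL_sound e]
  exact hq

theorem ncard_image_qF {O : List (List ℕ)} (h : ∀ y ∈ O, y ∈ quartL) (hn : O.Nodup) :
    (qF '' {y | y ∈ O}).ncard = O.length := by
  have hinj : Set.InjOn qF {y | y ∈ O} := qF_injOn.mono (fun y hy => h y hy)
  rw [hinj.ncard_image]
  have : {q | q ∈ O} = ((O.toFinset : Finset (List ℕ)) : Set (List ℕ)) := by
    ext q
    simp
  rw [this, Set.ncard_coe_finset, List.toFinset_card_of_nodup hn]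

/-- The quartets of the standard dodecad by orbits. -/
theorem quartets_D0_union : quartets D0 = {qF q0} ∪ qF '' {y | y ∈ O12} ∪ qF '' {y | y ∈ O27} ∪
    qF '' {y | y ∈ O72} ∪ qF '' {y | y ∈ O108} := by
  have hok : ∀ q ∈ quartL, qF q ∈ quartets D0 := fun q hq => qF_mem_quartets (allL_spec quartL_ok q hq)
  ext Y
  constructor
  · intro hY
    obtain ⟨q, hq, rfl⟩ := exists_list_of_quartet hY
    have h := allL_spec orbits_cover q hq
    simp only [Bool.or_eq_true, List.any_eq_true] at h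
    rcases h with (((h | h) | h) | h) | h
    · rw [eqL_sound h]; simp
    · obtain ⟨y, hy, e⟩ := h
      rw [eqL_sound e]
      exact Or.inl (Or.inl (Or.inl (Or.inr ⟨y, hy, rfl⟩)))
    · obtain ⟨y, hy, e⟩ := h
      rw [eqL_sound e]
      exact Or.inl (Or.inl (Or.inr ⟨y, hy, rfl⟩))
    · obtain ⟨y, hy, e⟩ := h
      rw [eqL_sound e]
      exact Or.inl (Or.inr ⟨y, hy, rfl⟩)
    · obtain ⟨y, hy, e⟩ := h
      rw [eqL_sound e]
      exact Or.inr ⟨y, hy, rfl⟩
  · rintro ((((h | h) | h) | h) | h)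
    · rw [h]; exact Q0_mem
    · obtain ⟨y, hy, rfl⟩ := h
      exact hok y (sub_quartL O12_sub y hy)
    · obtain ⟨y, hy, rfl⟩ := h
      exact hok y (sub_quartL O27_sub y hy)
    · obtain ⟨y, hy, rfl⟩ := h
      exact hok y (sub_quartL O72_sub y hy)
    · obtain ⟨y, hy, rfl⟩ := h
      exact hok y (sub_quartL O108_sub y hy)

/-- Orbits under conjugate subgroups. -/
lemma orbit_conj {G X : Type*} [Group G] [MulAction G X] (k : G) {K K' : Subgroup G}
    (h : ∀ g, g ∈ K ↔ k * g * k⁻¹ ∈ K') (x : X) :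
    orbit K (k⁻¹ • x) = (fun y => k⁻¹ • y) '' orbit K' x := by
  ext y
  constructor
  · rintro ⟨⟨g, hg⟩, rfl⟩
    refine ⟨(⟨k * g * k⁻¹, (h g).1 hg⟩ : K') • x, ⟨_, rfl⟩, ?_⟩
    show k⁻¹ • (k * g * k⁻¹) • x = g • k⁻¹ • x
    simp only [mul_smul, inv_smul_smul]
  · rintro ⟨_, ⟨⟨g, hg⟩, rfl⟩, rfl⟩
    have h2 : k⁻¹ * g * k ∈ K := (h _).2 (by
      have : k * (k⁻¹ * g * k) * k⁻¹ = g := by group
      rw [this]; exact hg)
    refine ⟨⟨k⁻¹ * g * k, h2⟩, ?_⟩
    show (k⁻¹ * g * k) • k⁻¹ • x = k⁻¹ • g • x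
    simp only [mul_smul, smul_inv_smul]

end Cfsg.Agent.Lib.M24
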