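/-
Families of subsets given by lists of masks: the stabilisers in the group of the code, orbit checks
with invariant class functions, transport along the group.
-/
import Cfsg.Agent.Lib.M24.QuartetOrb

set_option autoImplicit false

namespace Cfsg.Agent.Lib.M24

open Cfsg Cfsg.Agent.Lib.Golay Finset MulAction
open scoped Pointwise

/-- The stabiliser of a family given by a list of masks. -/
def SQ (q : List ℕ) : Subgroup (Equiv.Perm GolayPt) := M24 ⊓ stabilizer (Equiv.Perm GolayPt) (qF q)

lemma mem_SQ {q : List ℕ} {g : Equiv.Perm GolayPt} : g ∈ SQ q ↔ g ∈ M24 ∧ g • qF q = qF q := by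
  exact Subgroup.mem_inf.trans (and_congr_right fun _ => mem_stabilizer_iff)

/-- The check for an element of the stabiliser of a family. -/
noncomputable def genInQ (q : List ℕ) (p : ℕ × ℕ) : Bool :=
  genOK p.1 p.2 && allL (fun m => inL (pimgT (mkTab p.1) m) q) q

lemma smul_qF_eq {q : List ℕ} {g : Equiv.Perm GolayPt} {T : ℕ} (hT : ∀ m, g • finOf m = finOf (pimgT T m))
    (h : allL (fun m => inL (pimgT T m) q) q = true) : g • qF q = qF q := by
  apply Finset.eq_of_subset_of_card_le
  · intro t ht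
    obtain ⟨s, hs, rfl⟩ := Finset.mem_smul_finset.1 ht
    obtain ⟨m, hm, rfl⟩ := mem_qF.1 hs
    exact mem_qF.2 ⟨_, inL_iff.1 (allL_spec h m hm), (hT m).symm⟩
  · rw [Finset.card_smul_finset]

lemma tabIn_of_genInQ {q : List ℕ} {p : ℕ × ℕ} (h : genInQ q p = true) : TabIn (SQ q) (mkTab p.1) := by
  have h' := h
  simp only [genInQ, Bool.and_eq_true] at h'
  obtain ⟨g, hg, ha, -⟩ := exists_of_genOK h'.1
  have hT := smul_finOf_of_act ha (tabOK_mkTab_of_genOK h'.1)
  exact ⟨g, mem_SQ.2 ⟨hg, smul_qF_eq hT h'.2⟩, hT⟩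

lemma tabIn_of_gensQ {q : List ℕ} {gens : List (ℕ × ℕ)} (h : allL (genInQ q) gens = true) :
    ∀ T ∈ tabsOf gens, TabIn (SQ q) T := by
  intro T hT
  obtain ⟨p, hp, rfl⟩ := List.mem_map.1 hT
  exact tabIn_of_genInQ (allL_spec h p hp)

/-- Every member of `U` of class `r.1` lies in the orbit of `r.2`, for each `r` in `reps`. -/
noncomputable def orbCheck (act : ℕ → ℕ → ℕ) (Ts : List ℕ) (cl : ℕ → ℕ) (reps : List (ℕ × ℕ)) (U : List ℕ) : Bool :=
  allL (fun r => Bool.and (Nat.blt r.2 4294967295)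
      (allL (fun m => whenEq (cl m) r.1 (inOrbT (orbT act Ts r.2) m)) U)) reps

theorem reach_of_orbCheck {H : Subgroup (Equiv.Perm GolayPt)} {Ts : List ℕ} (hT : ∀ T ∈ Ts, TabIn H T)
    {cl : ℕ → ℕ} {reps : List (ℕ × ℕ)} {U : List ℕ} (h : orbCheck pimgT Ts cl reps U = true)
    {r : ℕ × ℕ} (hr : r ∈ reps) {m : ℕ} (hm : m ∈ U) (hc : cl m = r.1) :
    ∃ g ∈ H, g • finOf r.2 = finOf m := by
  have h4 : (Nat.blt r.2 4294967295 && (allL (fun m => whenEq (cl m) r.1 (inOrbT (orbT pimgT Ts r.2) m)) U)) = true :=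
    allL_spec h r hr
  rw [Bool.and_eq_true] at h4
  exact reach_mask hT (blt_sound h4.1) (whenEq_spec (allL_spec h4.2 m hm) hc)

/-- The transport of a subgroup element to the subgroup of the group of the code. -/
lemma mem_stab_of_SQ {q : List ℕ} {g : Equiv.Perm GolayPt} (hg : g ∈ SQ q) :
    (⟨g, (mem_SQ.1 hg).1⟩ : ↥M24) ∈ stabilizer M24 (qF q) := mem_stabilizer_iff.2 (mem_SQ.1 hg).2

lemma mem_SQ_of_stab {q : List ℕ} {g : ↥M24} (hg : g ∈ stabilizer M24 (qF q)) : (g : Equiv.Perm GolayPt) ∈ SQ q :=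
  mem_SQ.2 ⟨g.2, mem_stabilizer_iff.1 hg⟩

/-- Maximality transports along conjugation. -/
theorem isCoatom_stabilizer_of_smul {G X : Type*} [Group G] [MulAction G X] (k : G) {x : X}
    (h : IsCoatom (stabilizer G (k • x))) : IsCoatom (stabilizer G x) := by
  have e : stabilizer G (k • x) = (stabilizer G x).map (MulAut.conj k).toMonoidHom :=
    stabilizer_smul_eq_stabilizer_map_conj k x
  rw [e] at h
  have h2 := (OrderIso.isCoatom_iff (MulEquiv.mapSubgroup (MulAut.conj k)) (stabilizer G x)).1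
  exact h2 h

/-- The invariant of a set with respect to a family: the sum of squares of the sizes of intersections. -/
noncomputable def patF (S : Finset (Finset GolayPt)) (t : Finset GolayPt) : ℕ := ∑ u ∈ S, (u ∩ t).card ^ 2

lemma patF_smul {g : Equiv.Perm GolayPt} {S : Finset (Finset GolayPt)} (hg : g • S = S) (t : Finset GolayPt) :
    patF S (g • t) = patF S t := by
  unfold patF
  apply Finset.sum_nbij' (fun u => g⁻¹ • u) (fun u => g • u)
  · intro u hu
    rw [← hg] at hu
    obtain ⟨v, hv, rfl⟩ := Finset.mem_smul_finset.1 hu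
    simpa using hv
  · intro u hu
    rw [← hg]
    exact Finset.smul_mem_smul_finset hu
  · intro u _
    exact smul_inv_smul g u
  · intro u _
    exact inv_smul_smul g u
  · intro u _
    congr 1
    have := inter_smul_card g (g⁻¹ • u) t
    rw [smul_inv_smul] at this
    exact this

/-- The same, on numbers. -/
noncomputable def patN (q : List ℕ) (m : ℕ) : ℕ :=
  List.rec (motive := fun _ => ℕ) 0 (fun u _ ih => Nat.add (Nat.mul (pop (Nat.land u m)) (pop (Nat.land u m))) (tick ih)) q

lemma patF_finOf {q : List ℕ} (hq : q.Nodup) (hlt : ∀ u ∈ q, u < 2 ^ 24) (m : ℕ) : patF (qF q) (finOf m) = patN q m := by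
  have h1 : (q.map finOf).Nodup := hq.map_on (fun a ha b hb e => eq_of_finOf_eq (hlt a ha) (hlt b hb) e)
  unfold patF qF
  rw [List.sum_toFinset _ h1]
  clear h1
  induction q with
  | nil => rfl
  | cons a l ih =>
    have e : patN (a :: l) m = Nat.add (Nat.mul (pop (Nat.land a m)) (pop (Nat.land a m))) (tick (patN l m)) := rfl
    rw [e, List.map_cons, List.map_cons, List.sum_cons, ih (List.nodup_cons.1 hq).2 (fun u hu => hlt u (List.mem_cons_of_mem _ hu)),
      card_finOf_and (hlt a (by simp)), sq]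
    rfl

/-- Images of sets of lists. -/
theorem ncard_image_qF_gen {L : List (List ℕ)} (hinj : Set.InjOn qF {l | l ∈ L}) (hn : L.Nodup) :
    (qF '' {y | y ∈ L}).ncard = L.length := by
  rw [hinj.ncard_image]
  have : {q | q ∈ L} = ((L.toFinset : Finset (List ℕ)) : Set (List ℕ)) := by
    ext q
    simp
  rw [this, Set.ncard_coe_finset, List.toFinset_card_of_nodup hn]

end Cfsg.Agent.Lib.M24
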