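/-
Subgroups of order 40320 of a point stabiliser: they stabilise a duad or an octad through the point.
-/
import Cfsg.Agent.Lib.M24.FixSeven
import Cfsg.Agent.Lib.M24.Sextet

set_option autoImplicit false

namespace Cfsg.Agent.Lib.M24.I253

open Cfsg Cfsg.Agent.Lib.Golay Cfsg.Agent.Lib.M24 Finset MulAction
open scoped Pointwise

section congr

variable {α : Type*} [Fintype α] [DecidableEq α]

/-- An invariant set of an element of prime order has as many points modulo the prime as fixed points. -/
theorem card_inv_modEq (g : Equiv.Perm α) (W : Finset α) (hW : ∀ a ∈ W, g a ∈ W) {p : ℕ}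
    [hp : Fact p.Prime] (hg : g ^ p = 1) :
    W.card ≡ (W.filter (fun a => g a = a)).card [MOD p] := by
  let f : Function.End ↥W := fun a => ⟨g a, hW a a.2⟩
  have hpow : ∀ (n : ℕ) (a : ↥W), (((f ^ n) a : ↥W) : α) = (g ^ n) a.1 := by
    intro n
    induction n with
    | zero => intro a; rfl
    | succ n ih =>
      intro a
      rw [pow_succ, pow_succ]
      show (((f ^ n) (f a) : ↥W) : α) = (g ^ n) (g a.1)
      rw [ih]
  have hf : f ^ p ^ 1 = 1 := by
    rw [pow_one]
    funext a
    apply Subtype.ext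
    rw [hpow, hg]
    rfl
  have h := Equiv.Perm.card_fixedPoints_modEq hf
  rw [Fintype.card_coe] at h
  refine h.trans ?_
  have h1 : Fintype.card (Function.fixedPoints f) = (W.filter (fun a => g a = a)).card := by
    rw [← Fintype.card_coe]
    refine Fintype.card_congr
      { toFun := fun a => ⟨a.1.1, mem_filter.2 ⟨a.1.2, congrArg Subtype.val a.2⟩⟩
        invFun := fun a => ⟨⟨a.1, (mem_filter.1 a.2).1⟩, Subtype.ext (mem_filter.1 a.2).2⟩
        left_inv := fun a => rfl
        right_inv := fun a => rfl }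
  rw [h1]

end congr

variable {Hp : Subgroup (Equiv.Perm GolayPt)} {x : GolayPt}

/-- The situation. -/
structure Setup (Hp : Subgroup (Equiv.Perm GolayPt)) (x : GolayPt) : Prop where
  le : Hp ≤ M24
  fix : ∀ h ∈ Hp, h x = x
  card : Nat.card Hp = 40320

/-- Invariant sets. -/
def Inv (Hp : Subgroup (Equiv.Perm GolayPt)) (W : Finset GolayPt) : Prop := ∀ h ∈ Hp, ∀ z ∈ W, h z ∈ W

lemma Inv.compl {W : Finset GolayPt} (hW : Inv Hp W) : Inv Hp Wᶜ := by
  intro h hh z hz
  rw [mem_compl] at hz ⊢
  intro h1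
  apply hz
  have h2 := hW _ (Hp.inv_mem hh) _ h1
  simpa using h2

lemma Inv.union {W W' : Finset GolayPt} (hW : Inv Hp W) (hW' : Inv Hp W') : Inv Hp (W ∪ W') := by
  intro h hh z hz
  rw [mem_union] at hz ⊢
  exact hz.imp (hW h hh z) (hW' h hh z)

lemma inv_singleton (S : Setup Hp x) : Inv Hp {x} := by
  intro h hh z hz
  rw [mem_singleton] at hz ⊢
  rw [hz, S.fix h hh]

lemma Inv.smul_eq {W : Finset GolayPt} (hW : Inv Hp W) {h : Equiv.Perm GolayPt} (hh : h ∈ Hp) : h • W = W :=
  smul_eq_of_maps (hW h hh) rfl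

/-- The orbit through a point. -/
noncomputable def orb (Hp : Subgroup (Equiv.Perm GolayPt)) (y : GolayPt) : Finset GolayPt := by
  classical
  exact univ.filter (fun z => ∃ h ∈ Hp, h y = z)

lemma mem_orb {y z : GolayPt} : z ∈ orb Hp y ↔ ∃ h ∈ Hp, h y = z := by
  classical
  simp [orb]

lemma self_mem_orb (y : GolayPt) : y ∈ orb Hp y := mem_orb.2 ⟨1, Hp.one_mem, rfl⟩

lemma inv_orb (y : GolayPt) : Inv Hp (orb Hp y) := by
  intro h hh z hz
  obtain ⟨k, hk, rfl⟩ := mem_orb.1 hz
  exact mem_orb.2 ⟨h * k, Hp.mul_mem hh hk, rfl⟩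

lemma orb_card_dvd (y : GolayPt) : (orb Hp y).card ∣ Nat.card Hp := by
  have h1 : ((orb Hp y : Finset GolayPt) : Set GolayPt) = orbit ↥Hp y := by
    ext z
    rw [mem_coe, mem_orb]
    constructor
    · rintro ⟨h, hh, rfl⟩
      exact ⟨⟨h, hh⟩, rfl⟩
    · rintro ⟨h, rfl⟩
      exact ⟨h.1, h.2, rfl⟩
  have h2 := index_stabilizer ↥Hp y
  rw [← h1, Set.ncard_coe_finset] at h2
  rw [← h2]
  exact Subgroup.index_dvd_card _

lemma not_mem_orb_of_fix (S : Setup Hp x) {y : GolayPt} (hy : y ≠ x) : x ∉ orb Hp y := by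
  intro h
  obtain ⟨k, hk, e⟩ := mem_orb.1 h
  apply hy
  have h1 := S.fix k hk
  exact k.injective (e.trans h1.symm)

/-- The action on an invariant set. -/
def rhoA (Hp : Subgroup (Equiv.Perm GolayPt)) (A : Finset GolayPt) (hA : Inv Hp A) :
    ↥Hp →* Equiv.Perm ↥A where
  toFun h :=
    { toFun := fun a => ⟨h.1 a.1, hA _ h.2 _ a.2⟩
      invFun := fun a => ⟨h.1⁻¹ a.1, hA _ (Hp.inv_mem h.2) _ a.2⟩
      left_inv := by
        intro a
        apply Subtype.ext
        simp
      right_inv := by
        intro a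
        apply Subtype.ext
        simp }
  map_one' := by
    ext a
    rfl
  map_mul' := by
    intro g h
    ext a
    rfl

lemma rhoA_apply {A : Finset GolayPt} (hA : Inv Hp A) (h : ↥Hp) (a : ↥A) :
    ((rhoA Hp A hA h a : ↥A) : GolayPt) = h.1 a.1 := rfl

lemma rhoA_inj {A : Finset GolayPt} (hA : Inv Hp A) (hf : ∀ h ∈ Hp, (∀ z ∈ A, h z = z) → h = 1) :
    Function.Injective (rhoA Hp A hA) := by
  rw [injective_iff_map_eq_one]
  intro h hh
  apply Subtype.ext
  apply hf h.1 h.2
  intro z hz
  have h1 := congrArg (fun e : Equiv.Perm ↥A => ((e ⟨z, hz⟩ : ↥A) : GolayPt)) hh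
  exact h1

lemma card_perm_coe (A : Finset GolayPt) : Nat.card (Equiv.Perm ↥A) = A.card.factorial := by
  rw [Nat.card_perm, Nat.card_eq_fintype_card, Fintype.card_coe]

/-- Invariant sets of seven points, with the point, form an octad. -/
theorem case7 (S : Setup Hp x) {A : Finset GolayPt} (hA : Inv Hp A) (hc : A.card = 7) (hx : x ∉ A) :
    ∃ o ∈ octads, x ∈ o ∧ ∀ h ∈ Hp, h • o = o := by
  by_cases hex : ∃ o ∈ octads, insert x A ⊆ o
  · obtain ⟨o, ho, hsub⟩ := hex
    have hcard : (insert x A).card = 8 := by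
      rw [card_insert_of_notMem hx, hc]
    have he : insert x A = o := Finset.eq_of_subset_of_card_le hsub (by rw [ho.2, hcard])
    refine ⟨o, ho, hsub (mem_insert_self _ _), ?_⟩
    have hi : Inv Hp o := by
      rw [← he]
      rw [insert_eq]
      exact (inv_singleton S).union hA
    exact fun h hh => hi.smul_eq hh
  · exfalso
    push Not at hex
    have hf : ∀ h ∈ Hp, (∀ z ∈ A, h z = z) → h = 1 := by
      intro h hh hz
      apply fix_trivial (S.le hh) (F := insert x A)
      · intro z hz'
        rcases mem_insert.1 hz' with rfl | hz'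
        · exact S.fix h hh
        · exact hz z hz'
      · rw [card_insert_of_notMem hx, hc]
        norm_num
      · exact hex
    have h1 := Nat.card_le_card_of_injective _ (rhoA_inj hA hf)
    rw [card_perm_coe, hc, S.card] at h1
    norm_num [Nat.factorial] at h1

/-- There is no invariant set of eight points. -/
theorem case8 (S : Setup Hp x) {A : Finset GolayPt} (hA : Inv Hp A) (hc : A.card = 8) (hx : x ∉ A) :
    False := by
  have hcI : (insert x A).card = 9 := by rw [card_insert_of_notMem hx, hc]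
  have hbig : ∀ o ∈ octads, ¬ insert x A ⊆ o := by
    intro o ho h
    have := card_le_card h
    rw [hcI, ho.2] at this
    omega
  have hf : ∀ h ∈ Hp, (∀ z ∈ A, h z = z) → h = 1 := by
    intro h hh hz
    apply fix_trivial (S.le hh) (F := insert x A) _ (by omega) hbig
    intro z hz'
    rcases mem_insert.1 hz' with rfl | hz'
    · exact S.fix h hh
    · exact hz z hz'
  have hinj := rhoA_inj hA hf
  have hbij : Function.Bijective (rhoA Hp A hA) := by
    apply hinj.bijective_of_nat_card_le
    rw [card_perm_coe, hc, S.card]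
    norm_num [Nat.factorial]
  have key : ∀ a ∈ A, ∀ b ∈ A, a ≠ b → ∃ O ∈ octads, insert x ((A.erase a).erase b) ⊆ O ∧ a ∉ O := by
    intro a ha b hb hab
    obtain ⟨⟨h, hh⟩, he⟩ := hbij.surjective (Equiv.swap ⟨a, ha⟩ ⟨b, hb⟩)
    have hrest : ∀ z ∈ (A.erase a).erase b, h z = z := by
      intro z hz
      obtain ⟨hz1, hz2⟩ := mem_erase.1 hz
      obtain ⟨hz3, hz4⟩ := mem_erase.1 hz2
      have h1 := congrArg (fun e : Equiv.Perm ↥A => ((e ⟨z, hz4⟩ : ↥A) : GolayPt)) he
      have h2 : Equiv.swap (⟨a, ha⟩ : ↥A) ⟨b, hb⟩ ⟨z, hz4⟩ = ⟨z, hz4⟩ :=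
        Equiv.swap_apply_of_ne_of_ne (fun e => hz3 (congrArg Subtype.val e))
          (fun e => hz1 (congrArg Subtype.val e))
      simpa [rhoA_apply, h2] using h1
    have hab' : h a = b := by
      have h1 := congrArg (fun e : Equiv.Perm ↥A => ((e ⟨a, ha⟩ : ↥A) : GolayPt)) he
      simpa [rhoA_apply] using h1
    have hne : h ≠ 1 := by
      rintro rfl
      exact hab hab'
    have hFc : (insert x ((A.erase a).erase b)).card = 7 := by
      rw [card_insert_of_notMem (fun h' => hx (mem_of_mem_erase (mem_of_mem_erase h'))),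
        card_erase_of_mem (mem_erase.2 ⟨hab.symm, hb⟩), card_erase_of_mem ha, hc]
    have hFfix : ∀ z ∈ insert x ((A.erase a).erase b), h z = z := by
      intro z hz
      rcases mem_insert.1 hz with rfl | hz
      · exact S.fix h hh
      · exact hrest z hz
    obtain ⟨O, hO, hsub⟩ := fix_in_octad (S.le hh) hne hFfix (by omega)
    refine ⟨O, hO, hsub, fun haO => ?_⟩
    obtain ⟨s, hs1, hs2⟩ := Finset.exists_subset_card_eq
      (s := insert x ((A.erase a).erase b)) (n := 5) (by omega)
    have hhO : h • O = O := by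
      apply octad_unique hs2 (smul_octad (S.le hh) hO) hO
      · intro z hz
        have h1 : z ∈ O := hsub (hs1 hz)
        have h2 := (mem_smul_apply h z O).2 h1
        rwa [hFfix z (hs1 hz)] at h2
      · exact hs1.trans hsub
    have hbO : b ∈ O := by
      have h2 := (mem_smul_apply h a O).2 haO
      rwa [hab', hhO] at h2
    apply hbig O hO
    intro z hz
    rcases mem_insert.1 hz with rfl | hz
    · exact hsub (mem_insert_self _ _)
    · by_cases h1 : z = a
      · rwa [h1]
      · by_cases h2 : z = b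
        · rwa [h2]
        · exact hsub (mem_insert_of_mem (mem_erase.2 ⟨h2, mem_erase.2 ⟨h1, hz⟩⟩))
  -- four points
  obtain ⟨a, ha⟩ : A.Nonempty := card_pos.1 (by omega)
  have hc1 : (A.erase a).card = 7 := by rw [card_erase_of_mem ha, hc]
  obtain ⟨b, hb⟩ : (A.erase a).Nonempty := card_pos.1 (by omega)
  have hc2 : ((A.erase a).erase b).card = 6 := by rw [card_erase_of_mem hb, hc1]
  obtain ⟨c, hc'⟩ : ((A.erase a).erase b).Nonempty := card_pos.1 (by omega)
  have hc3 : (((A.erase a).erase b).erase c).card = 5 := by rw [card_erase_of_mem hc', hc2]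
  obtain ⟨d, hd⟩ : (((A.erase a).erase b).erase c).Nonempty := card_pos.1 (by omega)
  have hc4 : ((((A.erase a).erase b).erase c).erase d).card = 4 := by rw [card_erase_of_mem hd, hc3]
  obtain ⟨hb1, hb2⟩ := mem_erase.1 hb
  obtain ⟨hc5, hc6⟩ := mem_erase.1 hc'
  obtain ⟨hc7, hc8⟩ := mem_erase.1 hc6
  obtain ⟨hd1, hd2⟩ := mem_erase.1 hd
  obtain ⟨hd3, hd4⟩ := mem_erase.1 hd2
  obtain ⟨hd5, hd6⟩ := mem_erase.1 hd4
  obtain ⟨O1, hO1, hs1, ha1⟩ := key a ha b hb2 hb1.symm
  obtain ⟨O2, hO2, hs2, -⟩ := key c hc8 d hd6 hd1.symm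
  have hxR : x ∉ ((((A.erase a).erase b).erase c).erase d) := fun h' =>
    hx (mem_of_mem_erase (mem_of_mem_erase (mem_of_mem_erase (mem_of_mem_erase h'))))
  have hT : (insert x ((((A.erase a).erase b).erase c).erase d)).card = 5 := by
    rw [card_insert_of_notMem hxR, hc4]
  have hO : O1 = O2 := by
    apply octad_unique hT hO1 hO2
    · intro z hz
      rcases mem_insert.1 hz with rfl | hz
      · exact hs1 (mem_insert_self _ _)
      · exact hs1 (mem_insert_of_mem (mem_of_mem_erase (mem_of_mem_erase hz)))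
    · intro z hz
      rcases mem_insert.1 hz with rfl | hz
      · exact hs2 (mem_insert_self _ _)
      · obtain ⟨hz1, hz2⟩ := mem_erase.1 hz
        obtain ⟨hz3, hz4⟩ := mem_erase.1 hz2
        have hzA : z ∈ A := mem_of_mem_erase (mem_of_mem_erase hz4)
        exact hs2 (mem_insert_of_mem (mem_erase.2 ⟨hz1, mem_erase.2 ⟨hz3, hzA⟩⟩))
  apply ha1
  rw [hO]
  apply hs2
  apply mem_insert_of_mem
  refine mem_erase.2 ⟨?_, mem_erase.2 ⟨?_, ha⟩⟩
  · exact fun e => hd5 e.symm
  · exact fun e => hc7 e.symm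

/-- Elements of prime order seven have three fixed points. -/
theorem card_fix7 {g : Equiv.Perm GolayPt} (hg : g ∈ M24) (ho : orderOf g = 7) :
    (univ.filter (fun a => g a = a)).card = 3 := by
  have : Fact (Nat.Prime 7) := ⟨by norm_num⟩
  have h1 := card_inv_modEq g univ (fun a _ => mem_univ _) (p := 7) (ho ▸ pow_orderOf_eq_one g)
  rw [card_univ, card_golayPt] at h1
  have h2 : g ≠ 1 := by
    rintro rfl
    rw [orderOf_one] at ho
    omega
  unfold Nat.ModEq at h1
  by_cases h3 : 7 ≤ (univ.filter (fun a => g a = a)).card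
  · obtain ⟨o, ho', hsub⟩ := fix_in_octad hg h2 (F := univ.filter (fun a => g a = a))
      (fun z hz => (mem_filter.1 hz).2) h3
    have h4 := card_le_card hsub
    rw [ho'.2] at h4
    omega
  · omega

/-- Elements of prime order five have four fixed points. -/
theorem card_fix5 {g : Equiv.Perm GolayPt} (hg : g ∈ M24) (ho : orderOf g = 5) :
    (univ.filter (fun a => g a = a)).card = 4 := by
  have : Fact (Nat.Prime 5) := ⟨by norm_num⟩
  have h1 := card_inv_modEq g univ (fun a _ => mem_univ _) (p := 5) (ho ▸ pow_orderOf_eq_one g)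
  rw [card_univ, card_golayPt] at h1
  have h2 : g ≠ 1 := by
    rintro rfl
    rw [orderOf_one] at ho
    omega
  unfold Nat.ModEq at h1
  by_cases h3 : 7 ≤ (univ.filter (fun a => g a = a)).card
  · obtain ⟨o, ho', hsub⟩ := fix_in_octad hg h2 (F := univ.filter (fun a => g a = a))
      (fun z hz => (mem_filter.1 hz).2) h3
    have h4 := card_le_card hsub
    rw [ho'.2] at h4
    omega
  · omega

/-- The main dichotomy. -/
theorem main253 (S : Setup Hp x) :
    (∃ s : Finset GolayPt, s.card = 2 ∧ x ∉ s ∧ ∀ h ∈ Hp, h • s = s) ∨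
      ∃ o ∈ octads, x ∈ o ∧ ∀ h ∈ Hp, h • o = o := by
  classical
  have h7p : Fact (Nat.Prime 7) := ⟨by norm_num⟩
  have h5p : Fact (Nat.Prime 5) := ⟨by norm_num⟩
  obtain ⟨g7', hg7'⟩ := exists_prime_orderOf_dvd_card' (G := ↥Hp) 7 (by rw [S.card]; norm_num)
  obtain ⟨g5', hg5'⟩ := exists_prime_orderOf_dvd_card' (G := ↥Hp) 5 (by rw [S.card]; norm_num)
  obtain ⟨g7, h7⟩ := g7'
  obtain ⟨g5, h5⟩ := g5'
  have ho7 : orderOf g7 = 7 := by rw [← hg7', Subgroup.orderOf_mk]
  have ho5 : orderOf g5 = 5 := by rw [← hg5', Subgroup.orderOf_mk]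
  have hF7 := card_fix7 (S.le h7) ho7
  have hF5 := card_fix5 (S.le h5) ho5
  have hx7 : x ∈ univ.filter (fun a => g7 a = a) := mem_filter.2 ⟨mem_univ _, S.fix g7 h7⟩
  have hx5 : x ∈ univ.filter (fun a => g5 a = a) := mem_filter.2 ⟨mem_univ _, S.fix g5 h5⟩
  have hU : ((univ.filter (fun a => g7 a = a)).erase x).card = 2 := by
    rw [card_erase_of_mem hx7, hF7]
  obtain ⟨u, v, huv, hUe⟩ := Finset.card_eq_two.1 hU
  have hfix7 : ∀ z, g7 z = z ↔ z = x ∨ z = u ∨ z = v := by
    intro z
    have h1 := Finset.ext_iff.1 hUe z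
    simp only [mem_erase, mem_filter, mem_univ, true_and, mem_insert, mem_singleton] at h1
    constructor
    · intro hz
      by_cases hzx : z = x
      · exact Or.inl hzx
      · exact Or.inr (h1.1 ⟨hzx, hz⟩)
    · rintro (rfl | hz)
      · exact S.fix g7 h7
      · exact (h1.2 hz).2
  have hux : u ≠ x := by
    intro e
    have h1 : u ∈ (univ.filter (fun a => g7 a = a)).erase x := by rw [hUe]; simp
    exact (mem_erase.1 h1).1 e
  have hvx : v ≠ x := by
    intro e
    have h1 : v ∈ (univ.filter (fun a => g7 a = a)).erase x := by rw [hUe]; simp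
    exact (mem_erase.1 h1).1 e
  -- counts of fixed points of the element of order five
  let N5 : Finset GolayPt → ℕ := fun W => (W.filter (fun a => g5 a = a)).card
  let N7 : Finset GolayPt → ℕ := fun W => (W.filter (fun a => g7 a = a)).card
  have hmod5 : ∀ W, Inv Hp W → W.card % 5 = N5 W % 5 := fun W hW =>
    card_inv_modEq g5 W (hW g5 h5) (ho5 ▸ pow_orderOf_eq_one g5)
  have hmod7 : ∀ W, Inv Hp W → W.card % 7 = N7 W % 7 := fun W hW =>
    card_inv_modEq g7 W (hW g7 h7) (ho7 ▸ pow_orderOf_eq_one g7)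
  have hN5le : ∀ W : Finset GolayPt, x ∉ W → N5 W ≤ 3 := by
    intro W hW
    have h1 : W.filter (fun a => g5 a = a) ⊆ (univ.filter (fun a => g5 a = a)).erase x := by
      intro z hz
      obtain ⟨h2, h3⟩ := mem_filter.1 hz
      refine mem_erase.2 ⟨fun e => hW (e ▸ h2), mem_filter.2 ⟨mem_univ _, h3⟩⟩
    have h2 := card_le_card h1
    rw [card_erase_of_mem hx5, hF5] at h2
    exact h2
  have hN5add : ∀ W W' : Finset GolayPt, Disjoint W W' → N5 (W ∪ W') = N5 W + N5 W' := by
    intro W W' hd
    simp only [N5]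
    rw [filter_union, card_union_of_disjoint (disjoint_filter_filter hd)]
  have hdvd : ∀ y, (orb Hp y).card ∣ 40320 := fun y => S.card ▸ orb_card_dvd y
  have hcardcompl : ∀ W : Finset GolayPt, x ∉ W → ((insert x W)ᶜ).card + W.card = 23 := by
    intro W hW
    have h1 := card_compl (insert x W)
    rw [card_golayPt, card_insert_of_notMem hW] at h1
    have h2 : (insert x W).card ≤ 24 := by
      have := card_le_univ (insert x W)
      rwa [card_golayPt] at this
    rw [card_insert_of_notMem hW] at h2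
    omega
  have hinvC : ∀ W : Finset GolayPt, Inv Hp W → Inv Hp (insert x W)ᶜ := by
    intro W hW
    rw [insert_eq]
    exact ((inv_singleton S).union hW).compl
  have hxC : ∀ W : Finset GolayPt, x ∉ (insert x W)ᶜ := by
    intro W h
    rw [mem_compl] at h
    exact h (mem_insert_self _ _)
  by_cases hvu : v ∈ orb Hp u
  · -- both in one orbit
    have hx1 := not_mem_orb_of_fix S hux
    have hN : N7 (orb Hp u) = 2 := by
      have h1 : (orb Hp u).filter (fun a => g7 a = a) = {u, v} := by
        ext z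
        simp only [mem_filter, mem_insert, mem_singleton]
        constructor
        · rintro ⟨h1, h2⟩
          rcases (hfix7 z).1 h2 with rfl | h3
          · exact absurd h1 hx1
          · exact h3
        · rintro (rfl | rfl)
          · exact ⟨self_mem_orb _, (hfix7 _).2 (Or.inr (Or.inl rfl))⟩
          · exact ⟨hvu, (hfix7 _).2 (Or.inr (Or.inr rfl))⟩
      simp only [N7]
      rw [h1, card_pair huv]
    have h1 := hmod7 _ (inv_orb (Hp := Hp) u)
    have h2 := hmod5 _ (inv_orb (Hp := Hp) u)
    have h3 := hN5le _ hx1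
    have h4 := hcardcompl _ hx1
    have h5' := hdvd u
    rw [hN] at h1
    generalize hs : (orb Hp u).card = s at *
    have h6 : s = 2 ∨ s = 16 := by
      have h7' : s = 2 ∨ s = 9 ∨ s = 16 ∨ s = 23 := by omega
      rcases h7' with rfl | rfl | rfl | rfl
      · exact Or.inl rfl
      · omega
      · exact Or.inr rfl
      · norm_num at h5'
    rcases h6 with rfl | rfl
    · left
      exact ⟨orb Hp u, hs, hx1, fun h hh => (inv_orb u).smul_eq hh⟩
    · right
      exact case7 S (hinvC _ (inv_orb u)) (by omega) (hxC _)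
  · -- two orbits
    have hx1 := not_mem_orb_of_fix S hux
    have hx2 := not_mem_orb_of_fix S hvx
    have hu2 : u ∉ orb Hp v := by
      intro h
      obtain ⟨k, hk, e⟩ := mem_orb.1 h
      apply hvu
      refine mem_orb.2 ⟨k⁻¹, Hp.inv_mem hk, ?_⟩
      rw [← e]
      simp
    have hd : Disjoint (orb Hp u) (orb Hp v) := by
      rw [Finset.disjoint_left]
      intro z hz hz'
      obtain ⟨k, hk, e⟩ := mem_orb.1 hz
      obtain ⟨k', hk', e'⟩ := mem_orb.1 hz'
      apply hvu
      refine mem_orb.2 ⟨k'⁻¹ * k, Hp.mul_mem (Hp.inv_mem hk') hk, ?_⟩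
      rw [Equiv.Perm.mul_apply, e, ← e']
      simp
    have hx12 : x ∉ orb Hp u ∪ orb Hp v := by
      rw [mem_union]
      rintro (h | h)
      · exact hx1 h
      · exact hx2 h
    have hN1 : N7 (orb Hp u) = 1 := by
      have h1 : (orb Hp u).filter (fun a => g7 a = a) = {u} := by
        ext z
        simp only [mem_filter, mem_singleton]
        constructor
        · rintro ⟨h1, h2⟩
          rcases (hfix7 z).1 h2 with rfl | rfl | rfl
          · exact absurd h1 hx1
          · rfl
          · exact absurd h1 hvu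
        · rintro rfl
          exact ⟨self_mem_orb _, (hfix7 _).2 (Or.inr (Or.inl rfl))⟩
      simp only [N7]
      rw [h1, card_singleton]
    have hN2 : N7 (orb Hp v) = 1 := by
      have h1 : (orb Hp v).filter (fun a => g7 a = a) = {v} := by
        ext z
        simp only [mem_filter, mem_singleton]
        constructor
        · rintro ⟨h1, h2⟩
          rcases (hfix7 z).1 h2 with rfl | rfl | rfl
          · exact absurd h1 hx2
          · exact absurd h1 hu2
          · rfl
        · rintro rfl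
          exact ⟨self_mem_orb _, (hfix7 _).2 (Or.inr (Or.inr rfl))⟩
      simp only [N7]
      rw [h1, card_singleton]
    have i1 := inv_orb (Hp := Hp) u
    have i2 := inv_orb (Hp := Hp) v
    have i12 := i1.union i2
    have i3 := hinvC _ i12
    have h71 := hmod7 _ i1
    have h72 := hmod7 _ i2
    have h51 := hmod5 _ i1
    have h52 := hmod5 _ i2
    have h53 := hmod5 _ i3
    have hd3 : Disjoint (orb Hp u ∪ orb Hp v) (insert x (orb Hp u ∪ orb Hp v))ᶜ := by
      rw [Finset.disjoint_left]
      intro z hz hz'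
      rw [mem_compl] at hz'
      exact hz' (mem_insert_of_mem hz)
    have hadd : N5 ((orb Hp u ∪ orb Hp v) ∪ (insert x (orb Hp u ∪ orb Hp v))ᶜ)
        = N5 (orb Hp u) + N5 (orb Hp v) + N5 (insert x (orb Hp u ∪ orb Hp v))ᶜ := by
      rw [hN5add _ _ hd3, hN5add _ _ hd]
    have hle := hN5le ((orb Hp u ∪ orb Hp v) ∪ (insert x (orb Hp u ∪ orb Hp v))ᶜ) (by
      rw [mem_union]
      rintro (h | h)
      · exact hx12 h
      · exact hxC _ h)
    have hc3 := hcardcompl _ hx12
    rw [card_union_of_disjoint hd] at hc3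
    have hd1 := hdvd u
    have hd2 := hdvd v
    rw [hN1] at h71
    rw [hN2] at h72
    generalize hs1 : (orb Hp u).card = s1 at *
    generalize hs2 : (orb Hp v).card = s2 at *
    generalize hs3 : ((insert x (orb Hp u ∪ orb Hp v))ᶜ).card = s3 at *
    have hne1 : s1 ≠ 22 := by
      rintro rfl
      norm_num at hd1
    have hne2 : s2 ≠ 22 := by
      rintro rfl
      norm_num at hd2
    have hcases : (s1 = 1 ∧ s2 = 1) ∨ s3 = 7 ∨ s1 = 8 ∨ s2 = 8 := by omega
    rcases hcases with ⟨rfl, rfl⟩ | h | h | h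
    · -- three fixed points
      exfalso
      obtain ⟨a1, ha1⟩ := Finset.card_eq_one.1 hs1
      obtain ⟨a2, ha2⟩ := Finset.card_eq_one.1 hs2
      have hu' : ∀ h ∈ Hp, h u = u := by
        intro h hh
        have h1 := i1 h hh u (self_mem_orb u)
        rw [ha1, mem_singleton] at h1
        have h2 := self_mem_orb (Hp := Hp) u
        rw [ha1, mem_singleton] at h2
        rw [h1, h2]
      have hv' : ∀ h ∈ Hp, h v = v := by
        intro h hh
        have h1 := i2 h hh v (self_mem_orb v)
        rw [ha2, mem_singleton] at h1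
        have h2 := self_mem_orb (Hp := Hp) v
        rw [ha2, mem_singleton] at h2
        rw [h1, h2]
      let T : Set GolayPt := {x, u, v}
      have hT : T.ncard = 3 := by
        rw [Set.ncard_eq_toFinset_card']
        simp only [T, Set.toFinset_insert, Set.toFinset_singleton]
        rw [card_insert_of_notMem (by simp [hux.symm, hvx.symm]), card_pair huv]
      have hcard : Nat.card (fixingSubgroup M24 T) * (Nat.choose 24 T.ncard * T.ncard.factorial)
          = 244823040 := card_fixing_M24 T (by rw [hT]; norm_num)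
      rw [hT] at hcard
      have h0 : Nat.choose 24 3 * Nat.factorial 3 = 12144 := by decide
      rw [h0] at hcard
      have hfin : ∀ h : ↥Hp, (⟨h.1, S.le h.2⟩ : ↥M24) ∈ fixingSubgroup M24 T := by
        intro h
        rw [mem_fixingSubgroup_iff]
        intro z hz
        simp only [T, Set.mem_insert_iff, Set.mem_singleton_iff] at hz
        rcases hz with rfl | rfl | rfl
        · exact S.fix _ h.2
        · exact hu' _ h.2
        · exact hv' _ h.2
      let f : ↥Hp → ↥(fixingSubgroup M24 T) := fun h => ⟨⟨h.1, S.le h.2⟩, hfin h⟩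
      have hf : Function.Injective f := by
        intro a b hab
        apply Subtype.ext
        exact congrArg (fun z : ↥(fixingSubgroup M24 T) => ((z.1 : ↥M24) : Equiv.Perm GolayPt)) hab
      have h1 := Nat.card_le_card_of_injective f hf
      rw [S.card] at h1
      omega
    · right
      exact case7 S i3 (by rw [hs3]; exact h) (hxC _)
    · exfalso
      exact case8 S i1 (by rw [hs1]; exact h) hx1
    · exfalso
      exact case8 S i2 (by rw [hs2]; exact h) hx2

/-- The image of a subgroup of a point stabiliser among permutations. -/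
def imgP (x : GolayPt) (H : Subgroup ↥(stabilizer M24 x)) : Subgroup (Equiv.Perm GolayPt) :=
  (H.map (stabilizer M24 x).subtype).map M24.subtype

lemma mem_imgP {x : GolayPt} {H : Subgroup ↥(stabilizer M24 x)} (h : ↥(stabilizer M24 x)) (hh : h ∈ H) :
    ((h.1 : ↥M24) : Equiv.Perm GolayPt) ∈ imgP x H :=
  ⟨h.1, ⟨h, hh, rfl⟩, rfl⟩

theorem setup_imgP {x : GolayPt} {H : Subgroup ↥(stabilizer M24 x)} (hH : H.index = 253) :
    Setup (imgP x H) x := by
  refine ⟨Subgroup.map_subtype_le _, ?_, ?_⟩
  · rintro _ ⟨_, ⟨k, -, rfl⟩, rfl⟩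
    exact k.2
  · have h1 : Nat.card ↥(imgP x H) = Nat.card H := by
      rw [imgP, Subgroup.card_map_of_injective (Subtype.val_injective),
        Subgroup.card_map_of_injective (Subtype.val_injective)]
    have h2 := Subgroup.card_mul_index H
    rw [hH, card_stabilizer_M24] at h2
    rw [h1]
    omega

/-- A subgroup of index 253 stabilising a set in an orbit of at least 253 sets is its stabiliser. -/
theorem eq_of_orbit {x : GolayPt} {H : Subgroup ↥(stabilizer M24 x)} (hH : H.index = 253)
    (s : Finset GolayPt) (T : Set (Finset GolayPt)) (hT : 253 ≤ T.ncard)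
    (hTo : ∀ t ∈ T, ∃ g ∈ M24, g • s = t ∧ g x = x) (hle : ∀ h ∈ imgP x H, h • s = s) :
    H = (stabilizer M24 s).subgroupOf (stabilizer M24 x) := by
  let K : Subgroup ↥(stabilizer M24 x) := (stabilizer M24 s).subgroupOf (stabilizer M24 x)
  have hHK : H ≤ K := by
    intro h hh
    exact hle _ (mem_imgP h hh)
  have hK : K = stabilizer ↥(stabilizer M24 x) s := rfl
  have hidx : 253 ≤ K.index := by
    rw [hK, index_stabilizer]
    refine hT.trans (Set.ncard_le_ncard ?_ (Set.toFinite _))
    intro t ht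
    obtain ⟨g, hg, h1, h2⟩ := hTo t ht
    exact ⟨⟨⟨g, hg⟩, h2⟩, h1⟩
  have h1 := Subgroup.relIndex_mul_index hHK
  rw [hH] at h1
  have h2 : H.relIndex K = 1 := by
    have h3 : H.relIndex K ≠ 0 := by
      intro h0
      rw [h0] at h1
      omega
    by_contra h4
    have h5 : 2 ≤ H.relIndex K := by omega
    have h6 : 2 * 253 ≤ H.relIndex K * K.index := Nat.mul_le_mul h5 hidx
    omega
  exact le_antisymm hHK (Subgroup.relIndex_eq_one.1 h2)

theorem ncard_duads (x : GolayPt) : 253 ≤ {t : Finset GolayPt | t.card = 2 ∧ x ∉ t}.ncard := by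
  classical
  have h1 : {t : Finset GolayPt | t.card = 2 ∧ x ∉ t} = ((powersetCard 2 (univ.erase x) : Finset _) : Set _) := by
    ext t
    simp only [Set.mem_setOf_eq, mem_coe, mem_powersetCard]
    constructor
    · rintro ⟨h2, h3⟩
      exact ⟨fun z hz => mem_erase.2 ⟨fun e => h3 (e ▸ hz), mem_univ _⟩, h2⟩
    · rintro ⟨h2, h3⟩
      exact ⟨h3, fun h4 => (mem_erase.1 (h2 h4)).1 rfl⟩
  rw [h1, Set.ncard_coe_finset, card_powersetCard, card_erase_of_mem (mem_univ _), card_univ, card_golayPt]
  decide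

theorem ncard_octads_through (x : GolayPt) : 253 ≤ {o : Finset GolayPt | o ∈ octads ∧ x ∈ o}.ncard := by
  classical
  have h1 := Cfsg.Agent.Lib.Golay.Steiner.blocks_through_eq octads_steiner ({x} : Finset GolayPt) (by simp) 253
    (by rw [card_singleton]; decide) (by rw [card_singleton, card_golayPt]; decide)
  have h2 : {o : Finset GolayPt | o ∈ octads ∧ x ∈ o}
      = (((Cfsg.Agent.Lib.Golay.Steiner.BF octads).filter (({x} : Finset GolayPt) ⊆ ·) : Finset _) : Set _) := by
    ext o
    simp
  rw [h2, Set.ncard_coe_finset, h1]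

/-- Subgroups of index 253 in a point stabiliser. -/
theorem result_253 (x : GolayPt) (H : Subgroup ↥(stabilizer M24 x)) (hH : H.index = 253) :
    (∃ s : Finset GolayPt, s.card = 2 ∧ x ∉ s ∧ H = (stabilizer M24 s).subgroupOf (stabilizer M24 x)) ∨
      ∃ o ∈ octads, x ∈ o ∧ H = (stabilizer M24 o).subgroupOf (stabilizer M24 x) := by
  classical
  rcases main253 (setup_imgP hH) with ⟨s, hs, hxs, hinv⟩ | ⟨o, ho, hxo, hinv⟩
  · left
    refine ⟨s, hs, hxs, eq_of_orbit hH s _ (ncard_duads x) ?_ hinv⟩
    rintro t ⟨ht, hxt⟩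
    obtain ⟨g, hg, h1, h2⟩ := exists_map_pair (s := s) (t := {x}) (s' := t) (t' := {x})
      (by
        have := card_union_le s {x}
        rw [hs, card_singleton] at this
        omega)
      (by rw [hs, ht]) rfl
      (by rw [inter_singleton_of_notMem hxs, inter_singleton_of_notMem hxt])
    refine ⟨g, hg, h1, ?_⟩
    rw [Finset.smul_finset_singleton] at h2
    exact Finset.singleton_injective h2
  · right
    refine ⟨o, ho, hxo, eq_of_orbit hH o _ (ncard_octads_through x) ?_ hinv⟩
    rintro t ⟨ht, hxt⟩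
    obtain ⟨g, hg, h1, h2⟩ := exists_octad_point ho ht hxo hxt
    exact ⟨g, hg, h1, h2⟩

end Cfsg.Agent.Lib.M24.I253
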