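/-
There is no integer matrix `M` of size twenty-two with `M ^ 2 = 5 + 2 J`.
-/
import Mathlib

set_option autoImplicit false

namespace Cfsg.Agent.Lib.M24.I56

open Matrix

theorem no_sq_val {d : ℤ} (h : d * d = 5 ^ 21 * 49) : False := by
  have h1 : d.natAbs * d.natAbs = 5 ^ 21 * 49 := by
    have h2 : ((d.natAbs * d.natAbs : ℕ) : ℤ) = ((5 ^ 21 * 49 : ℕ) : ℤ) := by
      push_cast
      rw [abs_mul_abs_self, h]
      norm_num
    exact_mod_cast h2
  have h5 : Fact (Nat.Prime 5) := ⟨by norm_num⟩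
  have h0 : d.natAbs ≠ 0 := by
    intro h3
    rw [h3] at h1
    norm_num at h1
  have h2 := congrArg (padicValNat 5) h1
  rw [padicValNat.mul h0 h0, padicValNat.mul (by norm_num) (by norm_num), padicValNat.prime_pow,
    padicValNat.eq_zero_of_not_dvd (by norm_num : ¬ 5 ∣ 49)] at h2
  omega

theorem no_srg_22 {Ω : Type*} [Fintype Ω] [DecidableEq Ω] (hc : Fintype.card Ω = 22) (A : Matrix Ω Ω ℤ)
    (h : ∀ i j, ((A + 1) * (A + 1)) i j = if i = j then 7 else 2) : False := by
  let M : Matrix Ω Ω ℤ := Matrix.of fun i j => if i = j then 7 else 2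
  have hM : (A + 1) * (A + 1) = M := by
    ext i j
    exact h i j
  have h1 : (A + 1).det * (A + 1).det = M.det := by
    rw [← hM, Matrix.det_mul]
  have h2 : (M.det : ℚ) = 5 ^ 21 * 49 := by
    rw [Int.cast_det]
    have h3 : M.map (fun x : ℤ => (x : ℚ))
        = (5 : ℚ) • ((1 : Matrix Ω Ω ℚ) + Matrix.replicateCol Unit (fun _ : Ω => (2 / 5 : ℚ)) * Matrix.replicateRow Unit (fun _ : Ω => (1 : ℚ))) := by
      ext i j
      by_cases hij : i = j
      · subst hij
        simp [Matrix.add_apply, Matrix.smul_apply, Matrix.mul_apply, M]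
        norm_num
      · simp [Matrix.add_apply, Matrix.smul_apply, Matrix.mul_apply, Matrix.one_apply_ne hij, M, hij]
        norm_num
    rw [h3, Matrix.det_smul, Matrix.det_one_add_replicateCol_mul_replicateRow, hc]
    simp only [dotProduct, one_mul, Finset.sum_const, Finset.card_univ, hc]
    norm_num
  have h3 : (A + 1).det * (A + 1).det = 5 ^ 21 * 49 := by
    rw [h1]
    exact_mod_cast h2
  exact no_sq_val h3

end Cfsg.Agent.Lib.M24.I56
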