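/-
The stabiliser of two points has no subgroups of order 7920 or 2112.
-/
import Cfsg.Agent.Lib.M24.Index253
import Cfsg.Agent.Lib.M24.NoSrg22
import Cfsg.Agent.Lib.PSL23.Main

set_option autoImplicit false

namespace Cfsg.Agent.Lib.M24.I56

open Cfsg Cfsg.Agent.Lib.Golay Cfsg.Agent.Lib.M24 Cfsg.Agent.Lib.M24.I253 Finset MulAction
open scoped Pointwise

/-- Elements of order eleven have two fixed points. -/
theorem card_fix11 {g : Equiv.Perm GolayPt} (hg : g ∈ M24) (ho : orderOf g = 11) :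
    (univ.filter (fun a => g a = a)).card = 2 := by
  have : Fact (Nat.Prime 11) := ⟨by norm_num⟩
  have h1 := card_inv_modEq g univ (fun a _ => mem_univ _) (p := 11) (ho ▸ pow_orderOf_eq_one g)
  rw [card_univ, card_golayPt] at h1
  have h2 : g ≠ 1 := by
    rintro rfl
    rw [orderOf_one] at ho
    omega
  unfold Nat.ModEq at h1
  by_cases h3 : 7 ≤ (univ.filter (fun a => g a = a)).card
  · obtain ⟨o, ho', hsub⟩ := fix_in_octad hg h2 (F := univ.filter (fun a => g a = a))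
      (fun z hz => (mem_filter.1 hz).2) h3
    have h4 := card_le_card hsub
    rw [ho'.2] at h4
    omega
  · omega

open scoped Classical in
/-- Fixed points of a `3`-subgroup on an invariant set. -/
theorem k3_mod {K : Subgroup (Equiv.Perm GolayPt)} (hc : Nat.card K = 9) {Y : Finset GolayPt} (hY : Inv K Y) :
    Y.card % 3 = (Y.filter (fun a => ∀ h ∈ K, h a = a)).card % 3 := by
  have h3 : Fact (Nat.Prime 3) := ⟨by norm_num⟩
  have hG : IsPGroup 3 ↥K := by
    rw [IsPGroup.iff_card, hc]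
    exact ⟨2, by norm_num⟩
  let Z : SubMulAction ↥K GolayPt :=
    { carrier := (Y : Set GolayPt)
      smul_mem' := fun g a ha => hY g.1 g.2 a ha }
  have h1 := hG.card_modEq_card_fixedPoints ↥Z
  have h2 : Nat.card ↥Z = Y.card := by
    have : Nat.card ↥Z = Nat.card ↥Y := Nat.card_congr (Equiv.refl _)
    rw [this, Nat.card_eq_fintype_card, Fintype.card_coe]
  have h4 : Nat.card (fixedPoints ↥K ↥Z) = (Y.filter (fun a => ∀ h ∈ K, h a = a)).card := by
    rw [← Fintype.card_coe, ← Nat.card_eq_fintype_card]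
    refine Nat.card_congr
      { toFun := fun a => ⟨a.1.1, mem_filter.2 ⟨a.1.2, fun h hh => congrArg Subtype.val (a.2 ⟨h, hh⟩)⟩⟩
        invFun := fun a => ⟨⟨a.1, (mem_filter.1 a.2).1⟩, fun h =>
          Subtype.ext ((mem_filter.1 a.2).2 h.1 h.2)⟩
        left_inv := fun a => rfl
        right_inv := fun a => rfl }
  rw [h2, h4] at h1
  exact h1

/-- Subgroups fixing a set of at most five points pointwise have order dividing the order of the
fixator. -/
theorem card_dvd_fixing {K : Subgroup (Equiv.Perm GolayPt)} (hK : K ≤ M24) (T : Set GolayPt)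
    (hT : ∀ h ∈ K, ∀ z ∈ T, h z = z) : Nat.card K ∣ Nat.card (fixingSubgroup M24 T) := by
  let F : Subgroup (Equiv.Perm GolayPt) := (fixingSubgroup M24 T).map M24.subtype
  have h1 : Nat.card F = Nat.card (fixingSubgroup M24 T) :=
    Subgroup.card_map_of_injective Subtype.val_injective
  rw [← h1]
  apply Subgroup.card_dvd_of_le
  intro h hh
  refine ⟨⟨h, hK hh⟩, ?_, rfl⟩
  rw [SetLike.mem_coe, mem_fixingSubgroup_iff]
  exact hT h hh

variable {Hp : Subgroup (Equiv.Perm GolayPt)} {p q : GolayPt}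

/-- The situation. -/
structure S56 (Hp : Subgroup (Equiv.Perm GolayPt)) (p q : GolayPt) : Prop where
  le : Hp ≤ M24
  fixp : ∀ h ∈ Hp, h p = p
  fixq : ∀ h ∈ Hp, h q = q
  ne : p ≠ q
  card : Nat.card Hp = 7920

/-- The twenty-two other points. -/
def Om (p q : GolayPt) : Finset GolayPt := (univ.erase p).erase q

lemma mem_Om {a : GolayPt} : a ∈ Om p q ↔ a ≠ p ∧ a ≠ q := by
  simp [Om, and_comm]

lemma card_Om (hpq : p ≠ q) : (Om p q).card = 22 := by
  rw [Om, card_erase_of_mem (mem_erase.2 ⟨hpq.symm, mem_univ _⟩), card_erase_of_mem (mem_univ _), card_univ,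
    card_golayPt]

lemma inv_Om (S : S56 Hp p q) : Inv Hp (Om p q) := by
  intro h hh z hz
  obtain ⟨h1, h2⟩ := mem_Om.1 hz
  refine mem_Om.2 ⟨fun e => h1 (h.injective (e.trans (S.fixp h hh).symm)),
    fun e => h2 (h.injective (e.trans (S.fixq h hh).symm))⟩

/-- A `3`-subgroup of order nine fixes at most one of the points. -/
theorem k3_no_two (S : S56 Hp p q) {K : Subgroup (Equiv.Perm GolayPt)} (hK : K ≤ Hp) (hc : Nat.card K = 9)
    {y₁ y₂ : GolayPt} (h1 : y₁ ∈ Om p q) (h2 : y₂ ∈ Om p q) (hne : y₁ ≠ y₂)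
    (f1 : ∀ h ∈ K, h y₁ = y₁) (f2 : ∀ h ∈ K, h y₂ = y₂) : False := by
  obtain ⟨h11, h12⟩ := mem_Om.1 h1
  obtain ⟨h21, h22⟩ := mem_Om.1 h2
  let T : Set GolayPt := {p, q, y₁, y₂}
  have hT : T.ncard = 4 := by
    have : T = ((({p, q, y₁, y₂} : Finset GolayPt)) : Set GolayPt) := by simp [T]
    rw [this, Set.ncard_coe_finset]
    rw [card_insert_of_notMem (by simp [S.ne, h11.symm, h21.symm]),
      card_insert_of_notMem (by simp [h12.symm, h22.symm]), card_pair hne]
  have hcard : Nat.card (fixingSubgroup M24 T) * (Nat.choose 24 T.ncard * T.ncard.factorial)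
      = 244823040 := card_fixing_M24 T (by rw [hT]; norm_num)
  rw [hT] at hcard
  have h0 : Nat.choose 24 4 * Nat.factorial 4 = 255024 := by decide
  rw [h0] at hcard
  have h3 : Nat.card (fixingSubgroup M24 T) = 960 := by omega
  have h4 := card_dvd_fixing (hK.trans S.le) T (by
    intro h hh z hz
    simp only [T, Set.mem_insert_iff, Set.mem_singleton_iff] at hz
    rcases hz with rfl | rfl | rfl | rfl
    · exact S.fixp h (hK hh)
    · exact S.fixq h (hK hh)
    · exact f1 h hh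
    · exact f2 h hh)
  rw [h3, hc] at h4
  norm_num at h4

/-- Invariant sets among the points have size divisible by eleven. -/
theorem inv_eleven (S : S56 Hp p q) {g : Equiv.Perm GolayPt} (hg : g ∈ Hp) (ho : orderOf g = 11)
    {W : Finset GolayPt} (hW : Inv Hp W) (hsub : W ⊆ Om p q) : 11 ∣ W.card := by
  have : Fact (Nat.Prime 11) := ⟨by norm_num⟩
  have hc := card_fix11 (S.le hg) ho
  have hp1 : p ∈ univ.filter (fun a => g a = a) := mem_filter.2 ⟨mem_univ _, S.fixp g hg⟩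
  have hq1 : q ∈ univ.filter (fun a => g a = a) := mem_filter.2 ⟨mem_univ _, S.fixq g hg⟩
  have hfix : ∀ a ∈ W, g a ≠ a := by
    intro a ha hfa
    obtain ⟨h1, h2⟩ := mem_Om.1 (hsub ha)
    have hs : ({a, p, q} : Finset GolayPt) ⊆ univ.filter (fun a => g a = a) := by
      intro b hb
      simp only [mem_insert, mem_singleton] at hb
      rcases hb with rfl | rfl | rfl
      · exact mem_filter.2 ⟨mem_univ _, hfa⟩
      · exact hp1
      · exact hq1
    have h3 := card_le_card hs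
    rw [card_insert_of_notMem (by simp [h1, h2]), card_pair S.ne, hc] at h3
    omega
  have h1 := card_inv_modEq g W (hW g hg) (p := 11) (ho ▸ pow_orderOf_eq_one g)
  have h2 : W.filter (fun a => g a = a) = ∅ := by
    rw [filter_eq_empty_iff]
    exact fun a ha => hfix a ha
  rw [h2, card_empty] at h1
  exact (Nat.modEq_zero_iff_dvd.1 h1)

/-- The group is transitive on the twenty-two points. -/
theorem transitive56 (S : S56 Hp p q) {K : Subgroup (Equiv.Perm GolayPt)} (hK : K ≤ Hp) (hc : Nat.card K = 9)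
    {a : GolayPt} (ha : a ∈ Om p q) : orb Hp a = Om p q := by
  classical
  have h11 : Fact (Nat.Prime 11) := ⟨by norm_num⟩
  obtain ⟨⟨g, hg⟩, ho⟩ := exists_prime_orderOf_dvd_card' (G := ↥Hp) 11 (by rw [S.card]; norm_num)
  have ho' : orderOf g = 11 := by rw [← ho, Subgroup.orderOf_mk]
  have hsub : orb Hp a ⊆ Om p q := by
    intro z hz
    obtain ⟨h, hh, rfl⟩ := mem_orb.1 hz
    exact inv_Om S h hh a ha
  have h1 := inv_eleven S hg ho' (inv_orb a) hsub
  have h2 := card_le_card hsub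
  rw [card_Om S.ne] at h2
  have h3 : 0 < (orb Hp a).card := card_pos.2 ⟨a, self_mem_orb a⟩
  have h4 : (orb Hp a).card = 11 ∨ (orb Hp a).card = 22 := by omega
  rcases h4 with h4 | h4
  · exfalso
    have h5 : Inv K (orb Hp a) := fun h hh => inv_orb a h (hK hh)
    have h6 := k3_mod hc h5
    rw [h4] at h6
    have h7 : 1 < ((orb Hp a).filter (fun a => ∀ h ∈ K, h a = a)).card := by omega
    obtain ⟨y₁, hy₁, y₂, hy₂, hne⟩ := Finset.one_lt_card.1 h7
    obtain ⟨h8, h9⟩ := mem_filter.1 hy₁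
    obtain ⟨h10, h11⟩ := mem_filter.1 hy₂
    exact k3_no_two S hK hc (hsub h8) (hsub h10) hne h9 h11
  · exact Finset.eq_of_subset_of_card_le hsub (by rw [h4, card_Om S.ne])

/-- The point stabiliser inside the group. -/
def Stb (Hp : Subgroup (Equiv.Perm GolayPt)) (y : GolayPt) : Subgroup (Equiv.Perm GolayPt) :=
  Hp ⊓ stabilizer (Equiv.Perm GolayPt) y

lemma mem_Stb {y : GolayPt} {h : Equiv.Perm GolayPt} : h ∈ Stb Hp y ↔ h ∈ Hp ∧ h y = y :=
  Subgroup.mem_inf.trans (and_congr_right fun _ => mem_stabilizer_iff)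

lemma card_Stb (y : GolayPt) : Nat.card (Stb Hp y) * (orb Hp y).card = Nat.card Hp := by
  have h1 : ((orb Hp y : Finset GolayPt) : Set GolayPt) = orbit ↥Hp y := by
    ext z
    rw [mem_coe, mem_orb]
    constructor
    · rintro ⟨h, hh, rfl⟩
      exact ⟨⟨h, hh⟩, rfl⟩
    · rintro ⟨h, rfl⟩
      exact ⟨h.1, h.2, rfl⟩
  have h2 := index_stabilizer ↥Hp y
  rw [← h1, Set.ncard_coe_finset] at h2
  have h3 : (stabilizer ↥Hp y).map Hp.subtype = Stb Hp y := by
    ext h
    constructor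
    · rintro ⟨k, hk, rfl⟩
      exact mem_Stb.2 ⟨k.2, hk⟩
    · intro hh
      obtain ⟨h4, h5⟩ := mem_Stb.1 hh
      exact ⟨⟨h, h4⟩, h5, rfl⟩
  have h4 : Nat.card (Stb Hp y) = Nat.card (stabilizer ↥Hp y) := by
    rw [← h3]
    exact Subgroup.card_map_of_injective Subtype.val_injective
  rw [h4, ← h2, Subgroup.card_mul_index]

/-- The local data at a point. -/
structure Ctx (Hp : Subgroup (Equiv.Perm GolayPt)) (p q : GolayPt) (K : Subgroup (Equiv.Perm GolayPt))
    (y z : GolayPt) (g5 : Equiv.Perm GolayPt) : Prop where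
  S : S56 Hp p q
  hK : K ≤ Hp
  hc : Nat.card K = 9
  hy : y ∈ Om p q
  hfy : ∀ h ∈ K, h y = y
  hg5 : g5 ∈ Stb Hp y
  ho5 : orderOf g5 = 5
  hz : z ∈ Om p q
  hzy : z ≠ y
  hfix5 : ∀ a, g5 a = a ↔ a = p ∨ a = q ∨ a = y ∨ a = z

/-- The local data exist. -/
theorem exists_ctx (S : S56 Hp p q) : ∃ K y z g5, Ctx Hp p q K y z g5 := by
  classical
  have h3 : Fact (Nat.Prime 3) := ⟨by norm_num⟩
  have h5p : Fact (Nat.Prime 5) := ⟨by norm_num⟩
  -- a subgroup of order nine
  obtain ⟨K', hK'⟩ := Sylow.exists_subgroup_card_pow_prime (G := ↥Hp) 3 (n := 2) (by rw [S.card]; norm_num)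
  let K : Subgroup (Equiv.Perm GolayPt) := K'.map Hp.subtype
  have hK : K ≤ Hp := Subgroup.map_subtype_le _
  have hc : Nat.card K = 9 := by
    have : Nat.card K = Nat.card K' := Subgroup.card_map_of_injective Subtype.val_injective
    rw [this, hK']
    norm_num
  -- the fixed point
  have hOm : Inv K (Om p q) := fun h hh => inv_Om S h (hK hh)
  have h1 := k3_mod hc hOm
  rw [card_Om S.ne] at h1
  have h2 : 0 < ((Om p q).filter (fun a => ∀ h ∈ K, h a = a)).card := by omega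
  obtain ⟨y, hy⟩ := card_pos.1 h2
  obtain ⟨hy1, hy2⟩ := mem_filter.1 hy
  -- the order of the stabiliser
  have hc1 := card_Stb (Hp := Hp) y
  rw [transitive56 S hK hc hy1, card_Om S.ne, S.card] at hc1
  have hc2 : Nat.card (Stb Hp y) = 360 := by omega
  obtain ⟨⟨g5, hg5⟩, ho⟩ := exists_prime_orderOf_dvd_card' (G := ↥(Stb Hp y)) 5 (by rw [hc2]; norm_num)
  have ho5 : orderOf g5 = 5 := by rw [← ho, Subgroup.orderOf_mk]
  obtain ⟨hg5H, hg5y⟩ := mem_Stb.1 hg5
  have hF := card_fix5 (S.le hg5H) ho5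
  obtain ⟨hy3, hy4⟩ := mem_Om.1 hy1
  have hp1 : p ∈ univ.filter (fun a => g5 a = a) := mem_filter.2 ⟨mem_univ _, S.fixp g5 hg5H⟩
  have hq1 : q ∈ (univ.filter (fun a => g5 a = a)).erase p :=
    mem_erase.2 ⟨S.ne.symm, mem_filter.2 ⟨mem_univ _, S.fixq g5 hg5H⟩⟩
  have hy5 : y ∈ ((univ.filter (fun a => g5 a = a)).erase p).erase q :=
    mem_erase.2 ⟨hy4, mem_erase.2 ⟨hy3, mem_filter.2 ⟨mem_univ _, hg5y⟩⟩⟩
  have hc3 : (((univ.filter (fun a => g5 a = a)).erase p).erase q).erase y = _ :=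
    rfl
  have hc4 : (((((univ.filter (fun a => g5 a = a)).erase p).erase q).erase y)).card = 1 := by
    rw [card_erase_of_mem hy5, card_erase_of_mem hq1, card_erase_of_mem hp1, hF]
  obtain ⟨z, hz⟩ := Finset.card_eq_one.1 hc4
  have hz0 : z ∈ (((univ.filter (fun a => g5 a = a)).erase p).erase q).erase y := by
    rw [hz]
    exact mem_singleton_self z
  obtain ⟨hz1, hz2⟩ := mem_erase.1 hz0
  obtain ⟨hz3, hz4⟩ := mem_erase.1 hz2
  obtain ⟨hz5, hz6⟩ := mem_erase.1 hz4
  refine ⟨K, y, z, g5, S, hK, hc, hy1, hy2, hg5, ho5, mem_Om.2 ⟨hz5, hz3⟩, hz1, ?_⟩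
  intro a
  constructor
  · intro ha
    by_cases h1 : a = p
    · exact Or.inl h1
    · by_cases h2 : a = q
      · exact Or.inr (Or.inl h2)
      · by_cases h3 : a = y
        · exact Or.inr (Or.inr (Or.inl h3))
        · have : a ∈ (((univ.filter (fun a => g5 a = a)).erase p).erase q).erase y :=
            mem_erase.2 ⟨h3, mem_erase.2 ⟨h2, mem_erase.2 ⟨h1, mem_filter.2 ⟨mem_univ _, ha⟩⟩⟩⟩
          rw [hz, mem_singleton] at this
          exact Or.inr (Or.inr (Or.inr this))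
  · rintro (rfl | rfl | rfl | rfl)
    · exact S.fixp g5 hg5H
    · exact S.fixq g5 hg5H
    · exact hg5y
    · exact (mem_filter.1 hz6).2

section ctx

variable {K : Subgroup (Equiv.Perm GolayPt)} {y z : GolayPt} {g5 : Equiv.Perm GolayPt}

lemma Ctx.inv_stb (C : Ctx Hp p q K y z g5) : Inv (Stb Hp y) (Om p q) :=
  fun h hh => inv_Om C.S h (mem_Stb.1 hh).1

lemma Ctx.inv_erase (C : Ctx Hp p q K y z g5) : Inv (Stb Hp y) ((Om p q).erase y) := by
  intro h hh a ha
  obtain ⟨h1, h2⟩ := mem_erase.1 ha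
  refine mem_erase.2 ⟨fun e => h1 (h.injective (e.trans (mem_Stb.1 hh).2.symm)), C.inv_stb h hh a h2⟩

/-- Sizes of invariant sets are divisible by three. -/
lemma Ctx.three (C : Ctx Hp p q K y z g5) {W : Finset GolayPt} (hW : Inv (Stb Hp y) W)
    (hsub : W ⊆ (Om p q).erase y) : W.card % 3 = 0 := by
  classical
  have hK : K ≤ Stb Hp y := fun h hh => mem_Stb.2 ⟨C.hK hh, C.hfy h hh⟩
  have h1 := k3_mod C.hc (Y := W) (fun h hh => hW h (hK hh))
  have h2 : W.filter (fun a => ∀ h ∈ K, h a = a) = ∅ := by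
    rw [filter_eq_empty_iff]
    intro a ha hf
    obtain ⟨h3, h4⟩ := mem_erase.1 (hsub ha)
    exact k3_no_two C.S C.hK C.hc h4 C.hy h3 hf C.hfy
  rw [h2, card_empty] at h1
  exact h1

/-- Sizes of invariant sets modulo five. -/
lemma Ctx.five (C : Ctx Hp p q K y z g5) {W : Finset GolayPt} (hW : Inv (Stb Hp y) W)
    (hsub : W ⊆ (Om p q).erase y) : W.card % 5 = if z ∈ W then 1 else 0 := by
  have h5p : Fact (Nat.Prime 5) := ⟨by norm_num⟩
  have h1 := card_inv_modEq g5 W (hW g5 C.hg5) (p := 5) (C.ho5 ▸ pow_orderOf_eq_one g5)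
  have h2 : W.filter (fun a => g5 a = a) = if z ∈ W then {z} else ∅ := by
    ext a
    rw [mem_filter, C.hfix5]
    constructor
    · rintro ⟨h3, h4⟩
      obtain ⟨h5, h6⟩ := mem_erase.1 (hsub h3)
      obtain ⟨h7, h8⟩ := mem_Om.1 h6
      rcases h4 with h4 | h4 | h4 | h4
      · exact absurd h4 h7
      · exact absurd h4 h8
      · exact absurd h4 h5
      · subst h4
        simp [h3]
    · intro h3
      split_ifs at h3 with h4
      · rw [mem_singleton] at h3
        subst h3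
        exact ⟨h4, Or.inr (Or.inr (Or.inr rfl))⟩
      · simp at h3
  unfold Nat.ModEq at h1
  rw [h1, h2]
  split_ifs <;> simp

/-- The orbit of the second fixed point. -/
noncomputable def W0 (Hp : Subgroup (Equiv.Perm GolayPt)) (y z : GolayPt) : Finset GolayPt := orb (Stb Hp y) z

lemma Ctx.W0_sub (C : Ctx Hp p q K y z g5) : W0 Hp y z ⊆ (Om p q).erase y := by
  intro a ha
  obtain ⟨h, hh, rfl⟩ := mem_orb.1 ha
  exact C.inv_erase h hh z (mem_erase.2 ⟨C.hzy, C.hz⟩)

lemma Ctx.W0_card (C : Ctx Hp p q K y z g5) : (W0 Hp y z).card = 6 := by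
  have h1 := C.three (inv_orb z) C.W0_sub
  have h2 := C.five (inv_orb z) C.W0_sub
  rw [if_pos (self_mem_orb z)] at h2
  have h3 := card_le_card C.W0_sub
  rw [card_erase_of_mem C.hy, card_Om C.S.ne] at h3
  have hc1 := card_Stb (Hp := Hp) y
  rw [transitive56 C.S C.hK C.hc C.hy, card_Om C.S.ne, C.S.card] at hc1
  have hc2 : Nat.card (Stb Hp y) = 360 := by omega
  have h4 : (W0 Hp y z).card ∣ 360 := hc2 ▸ orb_card_dvd z
  have h5 : (W0 Hp y z).card = 6 ∨ (W0 Hp y z).card = 21 := by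
    unfold W0 at h3 h4 ⊢
    omega
  rcases h5 with h5 | h5
  · exact h5
  · rw [h5] at h4
    norm_num at h4

/-- The remaining fifteen points. -/
noncomputable def W1 (Hp : Subgroup (Equiv.Perm GolayPt)) (p q y z : GolayPt) : Finset GolayPt :=
  (Om p q).erase y \ W0 Hp y z

lemma Ctx.W1_card (C : Ctx Hp p q K y z g5) : (W1 Hp p q y z).card = 15 := by
  rw [W1, card_sdiff_of_subset C.W0_sub, C.W0_card, card_erase_of_mem C.hy, card_Om C.S.ne]

lemma Ctx.W1_sub (_C : Ctx Hp p q K y z g5) : W1 Hp p q y z ⊆ (Om p q).erase y := sdiff_subset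

lemma Ctx.W1_inv (C : Ctx Hp p q K y z g5) : Inv (Stb Hp y) (W1 Hp p q y z) := by
  intro h hh a ha
  obtain ⟨h1, h2⟩ := mem_sdiff.1 ha
  refine mem_sdiff.2 ⟨C.inv_erase h hh a h1, fun h3 => h2 ?_⟩
  have := inv_orb z h⁻¹ ((Stb Hp y).inv_mem hh) (h a) h3
  have h4 : h⁻¹ (h a) = a := by simp
  rw [h4] at this
  exact this

lemma Ctx.z_not_W1 (_C : Ctx Hp p q K y z g5) : z ∉ W1 Hp p q y z :=
  fun h => (mem_sdiff.1 h).2 (self_mem_orb z)

/-- The stabiliser is transitive on the fifteen points. -/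
lemma Ctx.W1_trans (C : Ctx Hp p q K y z g5) {b b' : GolayPt} (hb : b ∈ W1 Hp p q y z) (hb' : b' ∈ W1 Hp p q y z) :
    ∃ k ∈ Stb Hp y, k b = b' := by
  have hsub : orb (Stb Hp y) b ⊆ W1 Hp p q y z := by
    intro a ha
    obtain ⟨h, hh, rfl⟩ := mem_orb.1 ha
    exact C.W1_inv h hh b hb
  have h1 := C.three (inv_orb b) (hsub.trans C.W1_sub)
  have h2 := C.five (inv_orb b) (hsub.trans C.W1_sub)
  rw [if_neg (fun h => C.z_not_W1 (hsub h))] at h2
  have h3 := card_le_card hsub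
  rw [C.W1_card] at h3
  have h4 : 0 < (orb (Stb Hp y) b).card := card_pos.2 ⟨b, self_mem_orb b⟩
  have h5 : (orb (Stb Hp y) b).card = 15 := by omega
  have h6 : orb (Stb Hp y) b = W1 Hp p q y z :=
    Finset.eq_of_subset_of_card_le hsub (by rw [h5, C.W1_card])
  rw [← h6] at hb'
  exact mem_orb.1 hb'

/-- A set invariant under the stabiliser of six points contains the second fixed point and is `W0`. -/
lemma Ctx.eq_W0 (C : Ctx Hp p q K y z g5) {W : Finset GolayPt} (hW : Inv (Stb Hp y) W)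
    (hsub : W ⊆ (Om p q).erase y) (hc : W.card = 6) : W = W0 Hp y z := by
  have h2 := C.five hW hsub
  rw [hc] at h2
  have hz : z ∈ W := by
    by_contra h
    rw [if_neg h] at h2
    omega
  have h3 : W0 Hp y z ⊆ W := by
    intro a ha
    obtain ⟨h, hh, rfl⟩ := mem_orb.1 ha
    exact hW h hh z hz
  exact (Finset.eq_of_subset_of_card_le h3 (by rw [hc, C.W0_card])).symm

/-- The graph. -/
def R (Hp : Subgroup (Equiv.Perm GolayPt)) (y z a b : GolayPt) : Prop := ∃ h ∈ Hp, h y = a ∧ h z = b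

lemma R_smul {a b : GolayPt} (hab : R Hp y z a b) {k : Equiv.Perm GolayPt} (hk : k ∈ Hp) :
    R Hp y z (k a) (k b) := by
  obtain ⟨h, hh, rfl, rfl⟩ := hab
  exact ⟨k * h, Hp.mul_mem hk hh, rfl, rfl⟩

lemma R_smul_iff {a b : GolayPt} {k : Equiv.Perm GolayPt} (hk : k ∈ Hp) :
    R Hp y z (k a) (k b) ↔ R Hp y z a b := by
  refine ⟨fun h => ?_, fun h => R_smul h hk⟩
  have := R_smul h (Hp.inv_mem hk)
  simpa using this

lemma R_y (_C : Ctx Hp p q K y z g5) {b : GolayPt} : R Hp y z y b ↔ b ∈ W0 Hp y z := by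
  constructor
  · rintro ⟨h, hh, e1, rfl⟩
    exact mem_orb.2 ⟨h, mem_Stb.2 ⟨hh, e1⟩, rfl⟩
  · intro hb
    obtain ⟨h, hh, rfl⟩ := mem_orb.1 hb
    obtain ⟨h1, h2⟩ := mem_Stb.1 hh
    exact ⟨h, h1, h2, rfl⟩

lemma R_sub (C : Ctx Hp p q K y z g5) {a b : GolayPt} (hab : R Hp y z a b) :
    a ∈ Om p q ∧ b ∈ Om p q ∧ a ≠ b := by
  obtain ⟨h, hh, rfl, rfl⟩ := hab
  exact ⟨inv_Om C.S h hh y C.hy, inv_Om C.S h hh z C.hz, fun e => C.hzy (h.injective e).symm⟩

lemma Ctx.tr (C : Ctx Hp p q K y z g5) {a : GolayPt} (ha : a ∈ Om p q) : ∃ h ∈ Hp, h y = a := by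
  have h1 := transitive56 C.S C.hK C.hc C.hy
  rw [← h1] at ha
  exact mem_orb.1 ha

open scoped Classical in
/-- The neighbours. -/
noncomputable def Nb (Hp : Subgroup (Equiv.Perm GolayPt)) (p q y z a : GolayPt) : Finset GolayPt :=
  (Om p q).filter (R Hp y z a)

open scoped Classical in
/-- The neighbours, the other way. -/
noncomputable def Tb (Hp : Subgroup (Equiv.Perm GolayPt)) (p q y z b : GolayPt) : Finset GolayPt :=
  (Om p q).filter (fun a => R Hp y z a b)

lemma mem_Nb (C : Ctx Hp p q K y z g5) {a b : GolayPt} : b ∈ Nb Hp p q y z a ↔ R Hp y z a b := by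
  classical
  simp only [Nb, mem_filter]
  exact ⟨fun h => h.2, fun h => ⟨(R_sub C h).2.1, h⟩⟩

lemma mem_Tb (C : Ctx Hp p q K y z g5) {a b : GolayPt} : a ∈ Tb Hp p q y z b ↔ R Hp y z a b := by
  classical
  simp only [Tb, mem_filter]
  exact ⟨fun h => h.2, fun h => ⟨(R_sub C h).1, h⟩⟩

lemma Nb_smul (C : Ctx Hp p q K y z g5) {h : Equiv.Perm GolayPt} (hh : h ∈ Hp) (a : GolayPt) :
    Nb Hp p q y z (h a) = (Nb Hp p q y z a).image h := by
  classical
  ext b
  rw [mem_Nb C, mem_image]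
  constructor
  · intro h1
    refine ⟨h⁻¹ b, (mem_Nb C).2 ?_, by simp⟩
    rw [← R_smul_iff hh]
    simpa using h1
  · rintro ⟨c, hc, rfl⟩
    exact R_smul ((mem_Nb C).1 hc) hh

lemma Tb_smul (C : Ctx Hp p q K y z g5) {h : Equiv.Perm GolayPt} (hh : h ∈ Hp) (b : GolayPt) :
    Tb Hp p q y z (h b) = (Tb Hp p q y z b).image h := by
  classical
  ext a
  rw [mem_Tb C, mem_image]
  constructor
  · intro h1
    refine ⟨h⁻¹ a, (mem_Tb C).2 ?_, by simp⟩
    rw [← R_smul_iff hh]
    simpa using h1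
  · rintro ⟨c, hc, rfl⟩
    exact R_smul ((mem_Tb C).1 hc) hh

lemma Nb_y (C : Ctx Hp p q K y z g5) : Nb Hp p q y z y = W0 Hp y z := by
  ext b
  rw [mem_Nb C, R_y C]

lemma Nb_card (C : Ctx Hp p q K y z g5) {a : GolayPt} (ha : a ∈ Om p q) : (Nb Hp p q y z a).card = 6 := by
  classical
  obtain ⟨h, hh, rfl⟩ := C.tr ha
  rw [Nb_smul C hh, card_image_of_injective _ h.injective, Nb_y C, C.W0_card]

lemma not_mem_Nb (C : Ctx Hp p q K y z g5) (a : GolayPt) : a ∉ Nb Hp p q y z a :=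
  fun h => (R_sub C ((mem_Nb C).1 h)).2.2 rfl

lemma Tb_y (C : Ctx Hp p q K y z g5) : Tb Hp p q y z y = W0 Hp y z := by
  classical
  have h1 : ∑ a ∈ Om p q, ((Om p q).bipartiteAbove (R Hp y z) a).card
      = ∑ b ∈ Om p q, ((Om p q).bipartiteBelow (R Hp y z) b).card :=
    Finset.sum_card_bipartiteAbove_eq_sum_card_bipartiteBelow _
  have h2 : ∀ a ∈ Om p q, ((Om p q).bipartiteAbove (R Hp y z) a).card = 6 := by
    intro a ha
    rw [← Nb_card C ha]
    rfl
  have h3 : ∀ b ∈ Om p q, ((Om p q).bipartiteBelow (R Hp y z) b).card = (Tb Hp p q y z y).card := by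
    intro b hb
    obtain ⟨h, hh, rfl⟩ := C.tr hb
    have : (Om p q).bipartiteBelow (R Hp y z) (h y) = Tb Hp p q y z (h y) := rfl
    rw [this, Tb_smul C hh, card_image_of_injective _ h.injective]
  rw [Finset.sum_congr rfl h2, Finset.sum_congr rfl h3, sum_const, sum_const, card_Om C.S.ne] at h1
  have hc : (Tb Hp p q y z y).card = 6 := by
    simp only [smul_eq_mul] at h1
    omega
  apply C.eq_W0 _ _ hc
  · intro k hk a ha
    obtain ⟨hk1, hk2⟩ := mem_Stb.1 hk
    rw [mem_Tb C] at ha ⊢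
    have := R_smul ha hk1
    rwa [hk2] at this
  · intro a ha
    have h4 := (mem_Tb C).1 ha
    exact mem_erase.2 ⟨(R_sub C h4).2.2, (R_sub C h4).1⟩

lemma R_symm (C : Ctx Hp p q K y z g5) {a b : GolayPt} (hab : R Hp y z a b) : R Hp y z b a := by
  obtain ⟨h, hh, rfl, rfl⟩ := hab
  apply R_smul _ hh
  rw [← mem_Tb C, Tb_y C]
  exact self_mem_orb z

lemma inter_smul (C : Ctx Hp p q K y z g5) {h : Equiv.Perm GolayPt} (hh : h ∈ Hp) (a b : GolayPt) :
    (Nb Hp p q y z (h a) ∩ Nb Hp p q y z (h b)).card = (Nb Hp p q y z a ∩ Nb Hp p q y z b).card := by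
  classical
  rw [Nb_smul C hh, Nb_smul C hh, ← Finset.image_inter _ _ h.injective,
    card_image_of_injective _ h.injective]

lemma inter_R (C : Ctx Hp p q K y z g5) {a b : GolayPt} (hab : R Hp y z a b) :
    (Nb Hp p q y z a ∩ Nb Hp p q y z b).card = (Nb Hp p q y z y ∩ Nb Hp p q y z z).card := by
  obtain ⟨h, hh, rfl, rfl⟩ := hab
  exact inter_smul C hh y z

lemma L_cases (C : Ctx Hp p q K y z g5) :
    (Nb Hp p q y z y ∩ Nb Hp p q y z z).card = 0 ∨ (Nb Hp p q y z y ∩ Nb Hp p q y z z).card = 5 := by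
  classical
  have h5p : Fact (Nat.Prime 5) := ⟨by norm_num⟩
  obtain ⟨hg1, hg2⟩ := mem_Stb.1 C.hg5
  have hgz : g5 z = z := (C.hfix5 z).2 (Or.inr (Or.inr (Or.inr rfl)))
  have h1 := card_inv_modEq g5 (Nb Hp p q y z y ∩ Nb Hp p q y z z) (by
    intro a ha
    obtain ⟨h2, h3⟩ := mem_inter.1 ha
    refine mem_inter.2 ⟨?_, ?_⟩
    · rw [mem_Nb C] at h2 ⊢
      have := R_smul h2 hg1
      rwa [hg2] at this
    · rw [mem_Nb C] at h3 ⊢
      have := R_smul h3 hg1
      rwa [hgz] at this) (p := 5) (C.ho5 ▸ pow_orderOf_eq_one g5)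
  have h2 : (Nb Hp p q y z y ∩ Nb Hp p q y z z).filter (fun a => g5 a = a) = ∅ := by
    rw [filter_eq_empty_iff]
    intro a ha hfa
    obtain ⟨h3, h4⟩ := mem_inter.1 ha
    obtain ⟨h5, h6⟩ := mem_Om.1 (R_sub C ((mem_Nb C).1 h3)).2.1
    rcases (C.hfix5 a).1 hfa with rfl | rfl | rfl | rfl
    · exact h5 rfl
    · exact h6 rfl
    · exact not_mem_Nb C _ h3
    · exact not_mem_Nb C _ h4
  rw [h2, card_empty] at h1
  have h3 : Nb Hp p q y z y ∩ Nb Hp p q y z z ⊆ (Nb Hp p q y z y).erase z := by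
    intro a ha
    obtain ⟨h3, h4⟩ := mem_inter.1 ha
    exact mem_erase.2 ⟨fun e => not_mem_Nb C z (e ▸ h4), h3⟩
  have h4 := card_le_card h3
  have hzN : z ∈ Nb Hp p q y z y := (mem_Nb C).2 ⟨1, Hp.one_mem, rfl, rfl⟩
  rw [card_erase_of_mem hzN, Nb_card C C.hy] at h4
  unfold Nat.ModEq at h1
  omega

/-- The clique case does not occur. -/
theorem not_L5 (C : Ctx Hp p q K y z g5) (h5 : (Nb Hp p q y z y ∩ Nb Hp p q y z z).card = 5) : False := by
  classical
  let Cl : GolayPt → Finset GolayPt := fun a => insert a (Nb Hp p q y z a)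
  have hCard : ∀ a ∈ Om p q, (Cl a).card = 7 := by
    intro a ha
    simp only [Cl]
    rw [card_insert_of_notMem (not_mem_Nb C a), Nb_card C ha]
  have hstep : ∀ a b, R Hp y z a b → Cl a = Cl b := by
    intro a b hab
    obtain ⟨ha, hb, hne⟩ := R_sub C hab
    have h1 := inter_R C hab
    rw [h5] at h1
    have hbN : b ∈ Nb Hp p q y z a := (mem_Nb C).2 hab
    have h2 : Nb Hp p q y z a ∩ Nb Hp p q y z b ⊆ (Nb Hp p q y z a).erase b := by
      intro c hc
      obtain ⟨h3, h4⟩ := mem_inter.1 hc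
      exact mem_erase.2 ⟨fun e => not_mem_Nb C b (e ▸ h4), h3⟩
    have h3 : Nb Hp p q y z a ∩ Nb Hp p q y z b = (Nb Hp p q y z a).erase b :=
      Finset.eq_of_subset_of_card_le h2 (by rw [card_erase_of_mem hbN, Nb_card C ha, h1])
    have h4 : Cl a ⊆ Cl b := by
      intro c hc
      simp only [Cl, mem_insert] at hc ⊢
      rcases hc with rfl | hc
      · exact Or.inr ((mem_Nb C).2 (R_symm C hab))
      · by_cases hcb : c = b
        · exact Or.inl hcb
        · right
          have : c ∈ (Nb Hp p q y z a).erase b := mem_erase.2 ⟨hcb, hc⟩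
          rw [← h3] at this
          exact (mem_inter.1 this).2
    exact Finset.eq_of_subset_of_card_le h4 (by rw [hCard a ha, hCard b hb])
  have hfib : ∀ a ∈ Om p q, (Om p q).filter (fun b => Cl b = Cl a) = Cl a := by
    intro a ha
    ext b
    simp only [mem_filter]
    constructor
    · rintro ⟨-, h2⟩
      rw [← h2]
      exact mem_insert_self _ _
    · intro hb
      simp only [Cl, mem_insert] at hb
      rcases hb with rfl | hb
      · exact ⟨ha, rfl⟩
      · have hR := (mem_Nb C).1 hb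
        exact ⟨(R_sub C hR).2.1, (hstep a b hR).symm⟩
  have h1 := Finset.card_eq_sum_card_image Cl (Om p q)
  have h2 : ∀ c ∈ (Om p q).image Cl, ((Om p q).filter (fun b => Cl b = c)).card = 7 := by
    intro c hc
    obtain ⟨a, ha, rfl⟩ := mem_image.1 hc
    rw [hfib a ha, hCard a ha]
  rw [Finset.sum_congr rfl h2, sum_const, card_Om C.S.ne, smul_eq_mul] at h1
  omega

lemma inter_W1 (C : Ctx Hp p q K y z g5) {b b' : GolayPt} (hb : b ∈ W1 Hp p q y z) (hb' : b' ∈ W1 Hp p q y z) :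
    (Nb Hp p q y z y ∩ Nb Hp p q y z b).card = (Nb Hp p q y z y ∩ Nb Hp p q y z b').card := by
  obtain ⟨k, hk, rfl⟩ := C.W1_trans hb hb'
  obtain ⟨hk1, hk2⟩ := mem_Stb.1 hk
  have := inter_smul C hk1 y b
  rw [hk2] at this
  exact this.symm

/-- The number of common neighbours of nonadjacent vertices. -/
theorem mu_two (C : Ctx Hp p q K y z g5) (h0 : (Nb Hp p q y z y ∩ Nb Hp p q y z z).card = 0)
    {b : GolayPt} (hb : b ∈ W1 Hp p q y z) : (Nb Hp p q y z y ∩ Nb Hp p q y z b).card = 2 := by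
  classical
  have h1 : ∑ c ∈ Nb Hp p q y z y, ((W1 Hp p q y z).bipartiteAbove (R Hp y z) c).card
      = ∑ w ∈ W1 Hp p q y z, ((Nb Hp p q y z y).bipartiteBelow (R Hp y z) w).card :=
    Finset.sum_card_bipartiteAbove_eq_sum_card_bipartiteBelow _
  have h2 : ∀ c ∈ Nb Hp p q y z y, ((W1 Hp p q y z).bipartiteAbove (R Hp y z) c).card = 5 := by
    intro c hc
    have hRc := (mem_Nb C).1 hc
    have hcO := (R_sub C hRc).2.1
    have h3 : (W1 Hp p q y z).bipartiteAbove (R Hp y z) c = (Nb Hp p q y z c).erase y := by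
      ext w
      simp only [Finset.mem_bipartiteAbove, mem_erase]
      constructor
      · rintro ⟨h4, h5⟩
        exact ⟨(mem_erase.1 (C.W1_sub h4)).1, (mem_Nb C).2 h5⟩
      · rintro ⟨h4, h5⟩
        have hRw := (mem_Nb C).1 h5
        refine ⟨mem_sdiff.2 ⟨mem_erase.2 ⟨h4, (R_sub C hRw).2.1⟩, fun h6 => ?_⟩, hRw⟩
        rw [← Nb_y C] at h6
        have h7 := inter_R C hRc
        rw [h0] at h7
        have h8 : w ∈ Nb Hp p q y z y ∩ Nb Hp p q y z c := mem_inter.2 ⟨h6, h5⟩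
        rw [card_eq_zero.1 h7] at h8
        simp at h8
      
    rw [h3, card_erase_of_mem ((mem_Nb C).2 (R_symm C hRc)), Nb_card C hcO]
  have h3 : ∀ w ∈ W1 Hp p q y z, ((Nb Hp p q y z y).bipartiteBelow (R Hp y z) w).card
      = (Nb Hp p q y z y ∩ Nb Hp p q y z b).card := by
    intro w hw
    rw [inter_W1 C hb hw]
    congr 1
    ext c
    simp only [Finset.mem_bipartiteBelow, mem_inter]
    rw [mem_Nb C (a := w)]
    exact ⟨fun h => ⟨h.1, R_symm C h.2⟩, fun h => ⟨h.1, R_symm C h.2⟩⟩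
  rw [Finset.sum_congr rfl h2, Finset.sum_congr rfl h3, sum_const, sum_const, Nb_card C C.hy, C.W1_card] at h1
  simp only [smul_eq_mul] at h1
  omega

/-- Common neighbours of arbitrary vertices. -/
theorem inter_ne (C : Ctx Hp p q K y z g5) (h0 : (Nb Hp p q y z y ∩ Nb Hp p q y z z).card = 0)
    {a b : GolayPt} (ha : a ∈ Om p q) (hb : b ∈ Om p q) (hne : a ≠ b) (hR : ¬ R Hp y z a b) :
    (Nb Hp p q y z a ∩ Nb Hp p q y z b).card = 2 := by
  obtain ⟨h, hh, rfl⟩ := C.tr ha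
  let b' := h⁻¹ b
  have hb2 : h b' = b := by simp [b']
  have hb3 : b' ∈ Om p q := by
    have := inv_Om C.S h⁻¹ (Hp.inv_mem hh) b hb
    exact this
  have hb4 : b' ≠ y := by
    intro e
    apply hne
    rw [← hb2, e]
  have hb5 : b' ∉ W0 Hp y z := by
    intro h1
    apply hR
    rw [← hb2]
    exact R_smul ((R_y C).2 h1) hh
  have hb6 : b' ∈ W1 Hp p q y z := mem_sdiff.2 ⟨mem_erase.2 ⟨hb4, hb3⟩, hb5⟩
  rw [← hb2, inter_smul C hh]
  exact mu_two C h0 hb6

/-- The triangle-free case does not occur. -/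
theorem not_L0 (C : Ctx Hp p q K y z g5) (h0 : (Nb Hp p q y z y ∩ Nb Hp p q y z z).card = 0) : False := by
  classical
  let A : Matrix ↥(Om p q) ↥(Om p q) ℤ := fun i j => if R Hp y z i.1 j.1 then 1 else 0
  apply no_srg_22 (Ω := ↥(Om p q)) (by rw [Fintype.card_coe, card_Om C.S.ne]) A
  intro i j
  have h1 : ((A + 1) * (A + 1)) i j = (A * A) i j + 2 * A i j + (1 : Matrix ↥(Om p q) ↥(Om p q) ℤ) i j := by
    have : (A + 1) * (A + 1) = A * A + A + A + 1 := by
      rw [add_mul, mul_add, mul_add, mul_one, one_mul, mul_one]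
      abel
    rw [this]
    simp only [Matrix.add_apply]
    ring
  have h2 : (A * A) i j = ((Nb Hp p q y z i.1 ∩ Nb Hp p q y z j.1).card : ℤ) := by
    rw [Matrix.mul_apply]
    have h3 : Nb Hp p q y z i.1 ∩ Nb Hp p q y z j.1
        = (Om p q).filter (fun k => R Hp y z i.1 k ∧ R Hp y z j.1 k) := by
      ext k
      simp only [mem_inter, mem_filter, mem_Nb C]
      exact ⟨fun h => ⟨(R_sub C h.1).2.1, h⟩, fun h => h.2⟩
    rw [h3, Finset.natCast_card_filter, ← Finset.sum_coe_sort (Om p q)]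
    refine Finset.sum_congr rfl fun k _ => ?_
    simp only [A]
    have h4 : R Hp y z k.1 j.1 ↔ R Hp y z j.1 k.1 := ⟨R_symm C, R_symm C⟩
    by_cases h5 : R Hp y z i.1 k.1 <;> by_cases h6 : R Hp y z j.1 k.1 <;> simp [h5, h6, h4]
  rw [h1, h2]
  by_cases hij : i = j
  · subst hij
    have hR : ¬ R Hp y z i.1 i.1 := fun h => (R_sub C h).2.2 rfl
    simp [A, hR, Nb_card C i.2]
  · have hne : i.1 ≠ j.1 := fun e => hij (Subtype.ext e)
    by_cases hR : R Hp y z i.1 j.1
    · have h3 := inter_R C hR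
      rw [h0] at h3
      simp [A, hR, h3, hij]
    · have h3 := inter_ne C h0 i.2 j.2 hne hR
      simp [A, hR, h3, hij]

end ctx

/-- There is no subgroup of order 7920 of the stabiliser of two points. -/
theorem no_7920 (S : S56 Hp p q) : False := by
  obtain ⟨K, y, z, g5, C⟩ := exists_ctx S
  rcases L_cases C with h | h
  · exact not_L0 C h
  · exact not_L5 C h

/-- Subgroups of prime order are conjugate if the square of the prime does not divide the order. -/
theorem exists_conj_zpowers {G : Type*} [Group G] [Finite G] {r : ℕ} [hr : Fact r.Prime]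
    (hpp : ¬ r ^ 2 ∣ Nat.card G) {x y : G} (hx : orderOf x = r) (hy : orderOf y = r) :
    ∃ c : G, c * y * c⁻¹ ∈ Subgroup.zpowers x := by
  have key : ∀ z : G, orderOf z = r → ∀ S : Sylow r G, Subgroup.zpowers z ≤ S →
      (Subgroup.zpowers z : Subgroup G) = S := by
    intro z hz S hS
    apply Subgroup.eq_of_le_of_card_ge hS
    rw [Nat.card_zpowers, hz]
    obtain ⟨k, hk'⟩ := (IsPGroup.iff_card.mp S.isPGroup')
    have h1 : Nat.card S ∣ Nat.card G := Subgroup.card_subgroup_dvd_card _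
    rw [hk'] at h1 ⊢
    have h2 : k ≤ 1 := by
      by_contra hk2
      push Not at hk2
      exact hpp ((pow_dvd_pow r hk2).trans h1)
    calc r ^ k ≤ r ^ 1 := Nat.pow_le_pow_right hr.out.pos h2
      _ = r := pow_one r
  have hpg : ∀ z : G, orderOf z = r → IsPGroup r (Subgroup.zpowers z) := by
    intro z hz
    rw [IsPGroup.iff_card, Nat.card_zpowers, hz]
    exact ⟨1, (pow_one r).symm⟩
  obtain ⟨S1, hS1⟩ := (hpg x hx).exists_le_sylow
  obtain ⟨S2, hS2⟩ := (hpg y hy).exists_le_sylow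
  have e1 := key x hx S1 hS1
  have e2 := key y hy S2 hS2
  obtain ⟨c, hc⟩ := MulAction.exists_smul_eq G S2 S1
  refine ⟨c, ?_⟩
  have hym : y ∈ (S2 : Subgroup G) := by
    rw [← e2]
    exact Subgroup.mem_zpowers y
  have h3 : c * y * c⁻¹ ∈ (S1 : Subgroup G) := by
    rw [← hc, Sylow.coe_subgroup_smul, Subgroup.mem_smul_pointwise_iff_exists]
    exact ⟨y, hym, rfl⟩
  rwa [e1.symm] at h3

open Cfsg.Agent.Lib.PSL23 in
/-- There is no subgroup of order 2112 of the stabiliser of two points. -/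
theorem no_2112 {K : Subgroup (Equiv.Perm GolayPt)} (hK : K ≤ M24) (hpq : p ≠ q)
    (hp : ∀ h ∈ K, h p = p) (hq : ∀ h ∈ K, h q = q) (hc : Nat.card K = 2112) : False := by
  classical
  have h11 : Fact (Nat.Prime 11) := ⟨by norm_num⟩
  obtain ⟨⟨y, hy⟩, hoy⟩ := exists_prime_orderOf_dvd_card' (G := ↥K) 11 (by rw [hc]; norm_num)
  have hoy' : orderOf y = 11 := by rw [← hoy, Subgroup.orderOf_mk]
  have hF := card_fix11 (hK hy) hoy'
  have hfixy : ∀ a, y a = a → a = p ∨ a = q := by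
    intro a ha
    by_contra hcon
    push Not at hcon
    have hs : ({a, p, q} : Finset GolayPt) ⊆ univ.filter (fun a => y a = a) := by
      intro b hb
      simp only [mem_insert, mem_singleton] at hb
      rcases hb with rfl | rfl | rfl
      · exact mem_filter.2 ⟨mem_univ _, ha⟩
      · exact mem_filter.2 ⟨mem_univ _, hp y hy⟩
      · exact mem_filter.2 ⟨mem_univ _, hq y hy⟩
    have h3 := card_le_card hs
    rw [card_insert_of_notMem (by simp [hcon.1, hcon.2]), card_pair hpq, hF] at h3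
    omega
  have hm : mu a2 ∈ M24 := (Subgroup.mem_inf.1 (AA_le_Mp a2_mem_AA)).1
  have hoa : orderOf (mu a2) = 11 := orderOf_eq_prime a2_order mu_a2_ne
  have hox' : orderOf (⟨mu a2, hm⟩ : ↥M24) = 11 := by rw [Subgroup.orderOf_mk, hoa]
  have hoy'' : orderOf (⟨y, hK hy⟩ : ↥M24) = 11 := by rw [Subgroup.orderOf_mk, hoy']
  obtain ⟨⟨c, hcm⟩, hcmem⟩ := exists_conj_zpowers (G := ↥M24) (r := 11)
    (by rw [Cfsg.Agent.Lib.Golay.card_M24]; norm_num) hox' hoy''
  obtain ⟨k, hk⟩ := Subgroup.mem_zpowers_iff.1 hcmem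
  have hk' : mu a2 ^ k = c * y * c⁻¹ := congrArg Subtype.val hk
  let K' : Subgroup (Equiv.Perm GolayPt) := K.map (MulAut.conj c).toMonoidHom
  have hcK' : Nat.card K' = 2112 := by
    rw [← hc]
    exact Subgroup.card_map_of_injective (MulAut.conj c).injective
  have hmem : ∀ h ∈ K, c * h * c⁻¹ ∈ K' := fun h hh => ⟨h, hh, rfl⟩
  have hu : c * y * c⁻¹ ∈ Subgroup.zpowers (mu a2) := Subgroup.mem_zpowers_iff.2 ⟨k, hk'⟩
  have hou : orderOf (c * y * c⁻¹) = 11 := by
    have : c * y * c⁻¹ = (MulAut.conj c) y := rfl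
    rw [this, MulEquiv.orderOf_eq, hoy']
  have hzp : Subgroup.zpowers (c * y * c⁻¹) = Subgroup.zpowers (mu a2) := by
    apply Subgroup.eq_of_le_of_card_ge (Subgroup.zpowers_le.2 hu)
    rw [Nat.card_zpowers, Nat.card_zpowers, hou, hoa]
  have hP : Subgroup.zpowers (mu a2) ≤ K' := by
    rw [← hzp, Subgroup.zpowers_le]
    exact hmem y hy
  have hnone : y (c⁻¹ none) = c⁻¹ none := by
    have h1 : (mu a2 ^ k) none = none :=
      Equiv.Perm.zpow_apply_eq_self_of_apply_eq_self (mu_none a2) k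
    rw [hk'] at h1
    have h2 : c (y (c⁻¹ none)) = none := h1
    rw [← Equiv.Perm.eq_inv_iff_eq] at h2
    exact h2
  have hKM : K' ≤ Mp := by
    rintro _ ⟨h, hh, rfl⟩
    refine Subgroup.mem_inf.2 ⟨M24.mul_mem (M24.mul_mem hcm (hK hh)) (M24.inv_mem hcm), ?_⟩
    rw [mem_stabilizer_iff]
    change c (h (c⁻¹ none)) = none
    have h3 : h (c⁻¹ none) = c⁻¹ none := by
      rcases hfixy _ hnone with h4 | h4
      · rw [h4]
        exact hp h hh
      · rw [h4]
        exact hq h hh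
    rw [h3]
    simp
  obtain ⟨n, d, h1, h2, h3, h4⟩ := sylow_count (G := Equiv.Perm GolayPt) (K := K')
    (P := Subgroup.zpowers (mu a2)) (R := Subgroup.zpowers (mu a2)) (Q := Qn) (p := 11)
    hP card_zpow_a2 (by rw [hcK']; norm_num) (fun g hg hn => Subgroup.mem_inf.2 ⟨hKM hg, hn⟩) hP
    Subgroup.le_normalizer
  rw [hcK'] at h1
  rw [card_Qn] at h3
  rw [card_zpow_a2] at h4
  have hd : d = 11 ∨ d = 55 := by
    have h5 : d ∣ 55 := h3
    have h6 : d ∈ Nat.divisors 55 := Nat.mem_divisors.2 ⟨h5, by norm_num⟩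
    have h7 : Nat.divisors 55 = {1, 5, 11, 55} := by decide +kernel
    rw [h7] at h6
    simp only [mem_insert, mem_singleton] at h6
    rcases h6 with rfl | rfl | rfl | rfl
    · omega
    · omega
    · exact Or.inl rfl
    · exact Or.inr rfl
  rcases hd with rfl | rfl <;> omega

/-- The main result in terms of subgroups of a two-point stabiliser. -/
theorem result_m22 (p q : GolayPt) (hpq : p ≠ q)
    (H : Subgroup ↥(stabilizer M24 p ⊓ stabilizer M24 q)) : H.index ≠ 56 ∧ H.index ≠ 210 := by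
  have hcard : Nat.card H * H.index = 443520 := by
    rw [Subgroup.card_mul_index, card_two_point p q hpq]
  let Hq : Subgroup (Equiv.Perm GolayPt) :=
    (H.map (stabilizer M24 p ⊓ stabilizer M24 q).subtype).map M24.subtype
  have hHq : Nat.card Hq = Nat.card H := by
    simp only [Hq]
    rw [Subgroup.card_map_of_injective Subtype.val_injective,
      Subgroup.card_map_of_injective Subtype.val_injective]
  have hle : Hq ≤ M24 := Subgroup.map_subtype_le _
  have hfp : ∀ h ∈ Hq, h p = p := by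
    rintro _ ⟨_, ⟨k, -, rfl⟩, rfl⟩
    exact (Subgroup.mem_inf.1 k.2).1
  have hfq : ∀ h ∈ Hq, h q = q := by
    rintro _ ⟨_, ⟨k, -, rfl⟩, rfl⟩
    exact (Subgroup.mem_inf.1 k.2).2
  constructor
  · intro h56
    rw [h56] at hcard
    exact no_7920 (Hp := Hq) (p := p) (q := q) ⟨hle, hfp, hfq, hpq, by omega⟩
  · intro h210
    rw [h210] at hcard
    exact no_2112 hle hpq hfp hfq (by omega)

end Cfsg.Agent.Lib.M24.I56
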