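/-
The stabiliser of an octad: the pointwise stabiliser and the induced alternating group.
-/
import Cfsg.Agent.Lib.M24.SixPoint

set_option autoImplicit false
set_option linter.unusedSectionVars false

namespace Cfsg.Agent.Lib.M24

open Cfsg Cfsg.Agent.Lib.Golay Finset MulAction
open scoped Pointwise

/-- The stabiliser of a set in the group of the code, as a group of permutations. -/
abbrev SO (o : Finset GolayPt) : Subgroup (Equiv.Perm GolayPt) := M24 ⊓ stabilizer (Equiv.Perm GolayPt) o

/-- The pointwise stabiliser of a set in the group of the code. -/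
abbrev FO (o : Finset GolayPt) : Subgroup (Equiv.Perm GolayPt) :=
  M24 ⊓ fixingSubgroup (Equiv.Perm GolayPt) (o : Set GolayPt)

lemma mem_SO {o : Finset GolayPt} {g : Equiv.Perm GolayPt} : g ∈ SO o ↔ g ∈ M24 ∧ g • o = o :=
  ⟨fun h => ⟨h.1, h.2⟩, fun h => ⟨h.1, h.2⟩⟩

lemma inv_self_apply (h : Equiv.Perm GolayPt) (x : GolayPt) : h⁻¹ (h x) = x := by
  rw [Equiv.Perm.inv_eq_iff_eq]

lemma mem_FO {o : Finset GolayPt} {g : Equiv.Perm GolayPt} : g ∈ FO o ↔ g ∈ M24 ∧ ∀ x ∈ o, g x = x :=
  Subgroup.mem_inf.trans (and_congr_right fun _ => mem_fixingSubgroup_iff _)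

lemma smul_eq_of_fix {o : Finset GolayPt} {g : Equiv.Perm GolayPt} (h : ∀ x ∈ o, g x = x) : g • o = o := by
  apply smul_eq_of_maps _ rfl
  intro x hx
  rw [h x hx]
  exact hx

lemma FO_le_SO (o : Finset GolayPt) : FO o ≤ SO o := fun _ hg =>
  mem_SO.2 ⟨(mem_FO.1 hg).1, smul_eq_of_fix (mem_FO.1 hg).2⟩

lemma perm_iff_of_smul {o : Finset GolayPt} {g : Equiv.Perm GolayPt} (h : g • o = o) (x : GolayPt) :
    g x ∈ o ↔ x ∈ o := by
  conv_lhs => rw [← h]
  exact mem_smul_apply g x o

/-- Restriction to the octad. -/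
noncomputable def rho (o : Finset GolayPt) : SO o →* Equiv.Perm ↥o where
  toFun g := g.1.subtypePerm (perm_iff_of_smul (mem_SO.1 g.2).2)
  map_one' := by
    ext x
    rfl
  map_mul' a b := by
    ext x
    rfl

lemma rho_apply {o : Finset GolayPt} (g : SO o) (x : ↥o) : ((rho o g x : ↥o) : GolayPt) = g.1 x := rfl

lemma mem_ker_rho {o : Finset GolayPt} (g : SO o) : g ∈ (rho o).ker ↔ ∀ x ∈ o, g.1 x = x := by
  rw [MonoidHom.mem_ker]
  constructor
  · intro h x hx
    have := congrArg (fun e : Equiv.Perm ↥o => ((e ⟨x, hx⟩ : ↥o) : GolayPt)) h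
    exact this
  · intro h
    apply Equiv.ext
    intro x
    apply Subtype.ext
    exact h x.1 x.2

/-- Order of the stabiliser of an octad. -/
theorem card_SO {o : Finset GolayPt} (ho : o ∈ octads) : Nat.card (SO o) = 322560 := by
  rw [← Nat.card_congr (stabEquivInf M24 o).toEquiv]
  have h1 : orbit M24 o = octads := by
    ext t
    constructor
    · rintro ⟨g, rfl⟩
      exact smul_octad g.2 ho
    · intro ht
      obtain ⟨g, hg, h⟩ := exists_smul_octad ho ht
      exact ⟨⟨g, hg⟩, h⟩
  have h2 : (stabilizer M24 o).index = 759 := by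
    rw [index_stabilizer, h1, octads_ncard]
  have h3 := Subgroup.card_mul_index (stabilizer M24 o)
  rw [h2, card_M24] at h3
  omega

/-- Generators of the pointwise stabiliser of the standard octad. -/
def gensF0 : List (ℕ × ℕ) := [(268195153026948482477577069584812064, 268195153026948482477577069584812064), (651239579074641248992907580101724192, 651239579074641248992907580101724192), (561475773312554808336860583768983584, 561475773312554808336860583768983584), (380679813245078647833929983948064800, 380679813245078647833929983948064800)]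

/-- The singleton masks of the standard octad. -/
def o0Pts : List ℕ := [1, 2, 4, 8, 16, 128, 1024, 4096]

lemma gensF0_ok : allL (genIn o0Pts) gensF0 = true := by decide +kernel

/-- The outside points reached. -/
lemma outsideF0_check : allL (fun i => Bool.or (subM (2 ^ i) o0) (inOrbT (orbT pimgT (tabsOf gensF0) 32) (2 ^ i)))
    (List.range 24) = true := by decide +kernel

lemma two_pow_mem_o0Pts : ∀ p : GolayPt, p ∈ finOf o0 → 2 ^ idx p ∈ o0Pts := by decide +kernel

lemma fix_of_SM {g : Equiv.Perm GolayPt} (hg : g ∈ SM o0Pts) : ∀ x ∈ finOf o0, g x = x := by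
  intro x hx
  have h1 := (mem_SM.1 hg).2 _ (two_pow_mem_o0Pts x hx)
  have h2 := apply_eq_of_smul_single (idx_lt x) h1
  rwa [pt_idx] at h2

/-- The pointwise stabiliser of the standard octad is transitive on the points outside. -/
theorem F0_transitive {p : GolayPt} (hp : p ∉ finOf o0) : ∃ g ∈ SM o0Pts, g p = pt 5 := by
  have hi := idx_lt p
  have h1 := allL_spec outsideF0_check (idx p) (List.mem_range.2 hi)
  have h2 : ¬ subM (2 ^ idx p) o0 = true := by
    rw [subM_iff (two_pow_lt hi), finOf_two_pow_subset_iff hi, pt_idx]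
    exact hp
  rw [Bool.or_eq_true] at h1
  have h3 := h1.resolve_left h2
  obtain ⟨g, hg, hg'⟩ := reach_mask (tabIn_of_gens gensF0_ok) (by norm_num) h3
  have e : (32 : ℕ) = 2 ^ 5 := rfl
  rw [e, mem_fixed_iff_single 5 (by norm_num), mem_fixed_iff_single _ hi, pt_idx,
    Finset.smul_finset_singleton] at hg'
  refine ⟨g⁻¹, (SM _).inv_mem hg, ?_⟩
  rw [Equiv.Perm.inv_eq_iff_eq]
  exact (Finset.singleton_injective hg').symm

/-- The pointwise stabiliser of an octad is transitive on the points outside. -/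
theorem FO_transitive {o : Finset GolayPt} (ho : o ∈ octads) {p q : GolayPt} (hp : p ∉ o) (hq : q ∉ o) :
    ∃ g ∈ FO o, g p = q := by
  obtain ⟨h, hh, hho⟩ := exists_smul_octad ho O0_mem
  have h1 : h p ∉ finOf o0 := by rw [← hho, mem_smul_apply]; exact hp
  have h2 : h q ∉ finOf o0 := by rw [← hho, mem_smul_apply]; exact hq
  obtain ⟨a, ha, ha'⟩ := F0_transitive h1
  obtain ⟨b, hb, hb'⟩ := F0_transitive h2
  have hab : b⁻¹ * a ∈ SM o0Pts := (SM _).mul_mem ((SM _).inv_mem hb) ha
  refine ⟨h⁻¹ * (b⁻¹ * a) * h, mem_FO.2 ⟨M24.mul_mem (M24.mul_mem (M24.inv_mem hh) (mem_SM.1 hab).1) hh, ?_⟩, ?_⟩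
  · intro x hx
    change h⁻¹ ((b⁻¹ * a) (h x)) = x
    have h3 : h x ∈ finOf o0 := by rw [← hho, mem_smul_apply]; exact hx
    rw [fix_of_SM hab _ h3, inv_self_apply]
  · change h⁻¹ (b⁻¹ (a (h p))) = q
    rw [ha', ← hb', inv_self_apply, inv_self_apply]

lemma card_compl_octad {o : Finset GolayPt} (ho : o ∈ octads) : oᶜ.card = 16 := by
  rw [card_compl, card_golayPt, octad_card ho]

lemma exists_outside {o : Finset GolayPt} (ho : o ∈ octads) : ∃ p, p ∉ o := by
  have : 0 < oᶜ.card := by rw [card_compl_octad ho]; norm_num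
  obtain ⟨p, hp⟩ := card_pos.1 this
  exact ⟨p, mem_compl.1 hp⟩

/-- The kernel of the restriction has at least 16 elements. -/
lemma card_ker_ge {o : Finset GolayPt} (ho : o ∈ octads) : 16 ≤ Nat.card (rho o).ker := by
  obtain ⟨p, hp⟩ := exists_outside ho
  have hex : ∀ q : ↥oᶜ, ∃ g ∈ FO o, g p = q.1 := fun q => FO_transitive ho hp (mem_compl.1 q.2)
  choose f hf1 hf2 using hex
  let F : ↥oᶜ → (rho o).ker := fun q =>
    ⟨⟨f q, FO_le_SO o (hf1 q)⟩, (mem_ker_rho _).2 (mem_FO.1 (hf1 q)).2⟩
  have hF : Function.Injective F := by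
    intro a b hab
    have h1 : f a = f b := congrArg (fun x : (rho o).ker => (x.1.1 : Equiv.Perm GolayPt)) hab
    apply Subtype.ext
    rw [← hf2 a, ← hf2 b, h1]
  have := Nat.card_le_card_of_injective F hF
  rw [Nat.card_eq_fintype_card, Fintype.card_coe, card_compl_octad ho] at this
  exact this

/-- Moving the point set of a three-cycle. -/
lemma three_cases {α : Type*} (c : α → α) {P Q R U V W : α} (h1 : c P = Q) (h2 : c Q = R) (h3 : c R = P)
    (hU : U = P ∨ U = Q ∨ U = R) (hV : V = P ∨ V = Q ∨ V = R) (hW : W = P ∨ W = Q ∨ W = R)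
    (hUV : U ≠ V) (hUW : U ≠ W) (hVW : V ≠ W) :
    (c U = V ∧ c V = W ∧ c W = U) ∨ (c U = W ∧ c W = V ∧ c V = U) := by
  rcases hU with rfl | rfl | rfl <;> rcases hV with rfl | rfl | rfl <;> rcases hW with rfl | rfl | rfl <;>
    first
      | exact absurd rfl hUV
      | exact absurd rfl hUW
      | exact absurd rfl hVW
      | exact Or.inl ⟨by assumption, by assumption, by assumption⟩
      | exact Or.inr ⟨by assumption, by assumption, by assumption⟩

/-- The explicit element of order three. -/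
def c3 : ℕ × ℕ := (233256162770680474255234529480509472, 734193695561696696727012081653614624)

lemma c3_ok : genOK c3.1 c3.2 = true := by decide +kernel

lemma O0_split : ∀ p : GolayPt, p ∈ finOf o0 → (∃ i, p = base5' i) ∨ p = pt 7 ∨ p = pt 10 ∨ p = pt 12 := by
  decide +kernel

lemma c3_values : look c3.1 0 = 0 ∧ look c3.1 1 = 1 ∧ look c3.1 2 = 2 ∧ look c3.1 3 = 3 ∧ look c3.1 4 = 4 ∧
    look c3.1 7 = 10 ∧ look c3.1 10 = 12 ∧ look c3.1 12 = 7 := by decide +kernel

/-- The element `c3` as a permutation. -/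
lemma exists_c3 : ∃ c ∈ M24, (∀ i, c (base5' i) = base5' i) ∧ c (pt 7) = pt 10 ∧ c (pt 10) = pt 12 ∧
    c (pt 12) = pt 7 := by
  obtain ⟨c, hc, ha, -⟩ := exists_of_genOK c3_ok
  obtain ⟨h0, h1, h2, h3, h4, h7, h10, h12⟩ := c3_values
  refine ⟨c, hc, ?_, ?_, ?_, ?_⟩
  · intro i
    fin_cases i
    · change c (pt 0) = pt 0
      rw [apply_of_act ha (by norm_num), h0]
    · change c (pt 1) = pt 1
      rw [apply_of_act ha (by norm_num), h1]
    · change c (pt 2) = pt 2
      rw [apply_of_act ha (by norm_num), h2]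
    · change c (pt 3) = pt 3
      rw [apply_of_act ha (by norm_num), h3]
    · change c (pt 4) = pt 4
      rw [apply_of_act ha (by norm_num), h4]
  · rw [apply_of_act ha (by norm_num), h7]
  · rw [apply_of_act ha (by norm_num), h10]
  · rw [apply_of_act ha (by norm_num), h12]

/-- Elements acting as a given three-cycle. -/
lemma three_cycle_mem {o : Finset GolayPt} (σ : Equiv.Perm ↥o) (a : SO o) (x y z : ↥o)
    (hx : σ x = y) (hy : σ y = z) (hz : σ z = x) (hrest : ∀ w : ↥o, w ≠ x → w ≠ y → w ≠ z → σ w = w)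
    (hax : a.1 x.1 = y.1) (hay : a.1 y.1 = z.1) (haz : a.1 z.1 = x.1)
    (hafix : ∀ w : ↥o, w ≠ x → w ≠ y → w ≠ z → a.1 w.1 = w.1) : rho o a = σ := by
  ext w
  rw [rho_apply]
  by_cases h1 : w = x
  · subst h1
    rw [hax, hx]
  by_cases h2 : w = y
  · subst h2
    rw [hay, hy]
  by_cases h3 : w = z
  · subst h3
    rw [haz, hz]
  rw [hafix w h1 h2 h3, hrest w h1 h2 h3]

/-- Every three-cycle of an octad is induced. -/
theorem three_cycle_induced {o : Finset GolayPt} (ho : o ∈ octads) (σ : Equiv.Perm ↥o)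
    (hσ : σ.IsThreeCycle) : σ ∈ (rho o).range := by
  classical
  have hsupp : σ.support.card = 3 := hσ.card_support
  obtain ⟨x, hx⟩ : σ.support.Nonempty := card_pos.1 (by omega)
  have h3 : σ ^ 3 = 1 := by
    have := hσ.orderOf
    rw [← this]
    exact pow_orderOf_eq_one σ
  set y := σ x with hy
  set z := σ y with hz
  have hzx : σ z = x := by
    have := congrArg (fun e : Equiv.Perm ↥o => e x) h3
    simpa [pow_succ, hy, hz] using this
  have hxy : x ≠ y := fun h => (Equiv.Perm.mem_support.1 hx) h.symm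
  have hyz : y ≠ z := fun h => hxy (σ.injective (by rw [← hy, ← hz]; exact h))
  have hxz : x ≠ z := by
    intro h
    apply hxy
    calc x = σ z := hzx.symm
      _ = σ x := by rw [← h]
      _ = y := rfl
  have hsuppeq : σ.support = {x, y, z} := by
    symm
    apply Finset.eq_of_subset_of_card_le
    · intro w hw
      simp only [mem_insert, mem_singleton] at hw
      rw [Equiv.Perm.mem_support]
      rcases hw with rfl | rfl | rfl
      · exact Ne.symm hxy
      · exact Ne.symm hyz
      · rw [hzx]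
        exact hxz
    · rw [hsupp, card_insert_of_notMem (by simp [hxy, hxz]), card_pair hyz]
  have hrest : ∀ w : ↥o, w ≠ x → w ≠ y → w ≠ z → σ w = w := by
    intro w h1 h2 h3
    by_contra h
    have : w ∈ σ.support := Equiv.Perm.mem_support.2 h
    rw [hsuppeq] at this
    simp only [mem_insert, mem_singleton] at this
    tauto
  -- the remaining five points
  set R : Finset GolayPt := o \ {x.1, y.1, z.1} with hR
  have hx1 : x.1 ≠ y.1 := fun h => hxy (Subtype.ext h)
  have hx2 : x.1 ≠ z.1 := fun h => hxz (Subtype.ext h)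
  have hx3 : y.1 ≠ z.1 := fun h => hyz (Subtype.ext h)
  have hsub3 : ({x.1, y.1, z.1} : Finset GolayPt) ⊆ o := by
    intro w hw
    simp only [mem_insert, mem_singleton] at hw
    rcases hw with rfl | rfl | rfl
    · exact x.2
    · exact y.2
    · exact z.2
  have hR5 : R.card = 5 := by
    rw [hR, card_sdiff_of_subset hsub3, octad_card ho, card_insert_of_notMem (by simp [hx1, hx2]),
      card_pair hx3]
  let e : R ≃ Fin 5 := R.equivFinOfCardEq hR5
  let f : Fin 5 → GolayPt := fun i => (e.symm i : GolayPt)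
  have hfi : Function.Injective f := fun a b hab => e.symm.injective (Subtype.ext hab)
  have hfR : ∀ w ∈ R, ∃ i, f i = w := fun w hw => ⟨e ⟨w, hw⟩, by simp [f]⟩
  obtain ⟨h, hh, hhf⟩ := exists_map_five f base5' hfi base5'_inj
  have hho : h • o = finOf o0 := by
    apply smul_octad_of_subset hh ho O0_mem (sdiff_subset) hR5
    intro w hw
    obtain ⟨v, hv, rfl⟩ := Finset.mem_smul_finset.1 hw
    obtain ⟨i, rfl⟩ := hfR v hv
    change h (f i) ∈ _
    rw [hhf]
    exact base5'_mem i
  have hout : ∀ w : ↥o, w = x ∨ w = y ∨ w = z → h w.1 = pt 7 ∨ h w.1 = pt 10 ∨ h w.1 = pt 12 := by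
    intro w hw
    have h1 : h w.1 ∈ finOf o0 := by rw [← hho, mem_smul_apply]; exact w.2
    rcases O0_split _ h1 with ⟨i, hi⟩ | h2
    · exfalso
      have h2 : w.1 = f i := h.injective (hi.trans (hhf i).symm)
      have h3 : f i ∈ R := (e.symm i).2
      rw [← h2, hR, mem_sdiff] at h3
      apply h3.2
      simp only [mem_insert, mem_singleton]
      rcases hw with rfl | rfl | rfl <;> simp
    · exact h2
  obtain ⟨c, hc, hcb, hc7, hc10, hc12⟩ := exists_c3
  have hci := three_cases c hc7 hc10 hc12 (hout x (Or.inl rfl)) (hout y (Or.inr (Or.inl rfl)))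
    (hout z (Or.inr (Or.inr rfl))) (fun e => hx1 (h.injective e)) (fun e => hx2 (h.injective e))
    (fun e => hx3 (h.injective e))
  -- the candidate element
  have hcO : c • finOf o0 = finOf o0 := by
    apply smul_octad_of_subset (s := univ.image base5') hc O0_mem O0_mem
      (finset_image_base _ base5'_mem) card_image_base
    intro w hw
    obtain ⟨v, hv, rfl⟩ := Finset.mem_smul_finset.1 hw
    obtain ⟨i, -, rfl⟩ := mem_image.1 hv
    change c (base5' i) ∈ _
    rw [hcb]
    exact base5'_mem i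
  have hA : h⁻¹ * c * h ∈ SO o := by
    refine mem_SO.2 ⟨M24.mul_mem (M24.mul_mem (M24.inv_mem hh) hc) hh, ?_⟩
    rw [mul_smul, mul_smul, hho, hcO, inv_smul_eq_iff, hho]
  let A : SO o := ⟨h⁻¹ * c * h, hA⟩
  have hAv : ∀ v : GolayPt, A.1 v = h⁻¹ (c (h v)) := fun v => rfl
  have hAe : ∀ {u v : GolayPt}, c (h u) = h v → A.1 u = v := by
    intro u v huv
    rw [hAv, huv, inv_self_apply]
  have hAfix : ∀ w : ↥o, w ≠ x → w ≠ y → w ≠ z → A.1 w.1 = w.1 := by
    intro w h1 h2 h3
    have hwR : w.1 ∈ R := by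
      rw [hR, mem_sdiff]
      refine ⟨w.2, ?_⟩
      simp only [mem_insert, mem_singleton]
      rintro (h4 | h4 | h4)
      · exact h1 (Subtype.ext h4)
      · exact h2 (Subtype.ext h4)
      · exact h3 (Subtype.ext h4)
    obtain ⟨i, hi⟩ := hfR w.1 hwR
    apply hAe
    rw [← hi, hhf, hcb]
  rcases hci with ⟨c1, c2, c3'⟩ | ⟨c1, c2, c3'⟩
  · exact ⟨A, three_cycle_mem σ A x y z rfl rfl hzx hrest (hAe c1) (hAe c2) (hAe c3') hAfix⟩
  · -- the inverse of the candidate
    have e1 : A.1 x.1 = z.1 := hAe c1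
    have e2 : A.1 z.1 = y.1 := hAe c2
    have e3 : A.1 y.1 = x.1 := hAe c3'
    refine ⟨A⁻¹, three_cycle_mem σ A⁻¹ x y z rfl rfl hzx hrest ?_ ?_ ?_ ?_⟩
    · change (A.1)⁻¹ x.1 = y.1
      rw [Equiv.Perm.inv_eq_iff_eq]; exact e3.symm
    · change (A.1)⁻¹ y.1 = z.1
      rw [Equiv.Perm.inv_eq_iff_eq]; exact e2.symm
    · change (A.1)⁻¹ z.1 = x.1
      rw [Equiv.Perm.inv_eq_iff_eq]; exact e1.symm
    · intro w h1 h2 h3
      change (A.1)⁻¹ w.1 = w.1
      rw [Equiv.Perm.inv_eq_iff_eq]
      exact (hAfix w h1 h2 h3).symm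

/-- The induced group contains the alternating group. -/
theorem alt_le_range {o : Finset GolayPt} (ho : o ∈ octads) : alternatingGroup ↥o ≤ (rho o).range := by
  rw [← Equiv.Perm.closure_three_cycles_eq_alternating, Subgroup.closure_le]
  intro σ hσ
  exact three_cycle_induced ho σ hσ

lemma card_alt {o : Finset GolayPt} (ho : o ∈ octads) : Nat.card (alternatingGroup ↥o) = 20160 := by
  have h1 : Fintype.card ↥o = 8 := by rw [Fintype.card_coe, octad_card ho]
  have : Nontrivial ↥o := Fintype.one_lt_card_iff_nontrivial.1 (by omega)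
  have h2 := two_mul_card_alternatingGroup (α := ↥o)
  rw [Fintype.card_perm, h1] at h2
  rw [Nat.card_eq_fintype_card]
  have h3 : Nat.factorial 8 = 40320 := rfl
  omega

/-- The orders of the image and the kernel of the restriction. -/
theorem card_range_ker {o : Finset GolayPt} (ho : o ∈ octads) :
    Nat.card (rho o).range = 20160 ∧ Nat.card (rho o).ker = 16 := by
  have h1 := Subgroup.card_mul_index (rho o).ker
  rw [Subgroup.index_ker, card_SO ho] at h1
  have h2 := card_ker_ge ho
  have h3 : 20160 ≤ Nat.card (rho o).range := by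
    rw [← card_alt ho]
    exact Subgroup.card_le_of_le (alt_le_range ho)
  constructor
  · by_contra hne
    have h4 : 20161 ≤ Nat.card (rho o).range := by omega
    have := Nat.mul_le_mul h2 h4
    omega
  · by_contra hne
    have h4 : 17 ≤ Nat.card (rho o).ker := by omega
    have := Nat.mul_le_mul h4 h3
    omega

/-- The induced group is the alternating group. -/
theorem range_rho {o : Finset GolayPt} (ho : o ∈ octads) : (rho o).range = alternatingGroup ↥o := by
  symm
  apply Subgroup.eq_of_le_of_card_ge (alt_le_range ho)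
  rw [(card_range_ker ho).1, card_alt ho]

/-- The pointwise stabiliser has order sixteen. -/
theorem card_FO {o : Finset GolayPt} (ho : o ∈ octads) : Nat.card (FO o) = 16 := by
  rw [← (card_range_ker ho).2]
  apply Nat.card_congr
  exact {
    toFun := fun g => ⟨⟨g.1, FO_le_SO o g.2⟩, (mem_ker_rho _).2 (mem_FO.1 g.2).2⟩
    invFun := fun g => ⟨g.1.1, mem_FO.2 ⟨(mem_SO.1 g.1.2).1, (mem_ker_rho _).1 g.2⟩⟩
    left_inv := fun _ => rfl
    right_inv := fun _ => rfl }

/-- The pointwise stabiliser acts freely on the points outside. -/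
theorem FO_free {o : Finset GolayPt} (ho : o ∈ octads) {p : GolayPt} (hp : p ∉ o) {g : Equiv.Perm GolayPt}
    (hg : g ∈ FO o) (hgp : g p = p) : g = 1 := by
  classical
  -- the evaluation map from the group to the outside is surjective, hence injective
  let F : FO o → ↥oᶜ := fun a => ⟨a.1 p,
    mem_compl.2 ((perm_iff_of_smul (mem_SO.1 (FO_le_SO o a.2)).2 p).not.2 hp)⟩
  have hs : Function.Surjective F := by
    intro q
    obtain ⟨a, ha, haq⟩ := FO_transitive ho hp (mem_compl.1 q.2)
    exact ⟨⟨a, ha⟩, Subtype.ext haq⟩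
  have hc : Nat.card (FO o) = Nat.card ↥oᶜ := by
    rw [card_FO ho, Nat.card_eq_fintype_card, Fintype.card_coe, card_compl_octad ho]
  have hi : Function.Injective F := ((Nat.bijective_iff_surjective_and_card F).2 ⟨hs, hc⟩).1
  have h1 : F ⟨g, hg⟩ = F ⟨1, (FO o).one_mem⟩ := Subtype.ext hgp
  exact congrArg Subtype.val (hi h1)

end Cfsg.Agent.Lib.M24
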