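/-
Puncturing the length-24 code at the extra coordinate.
-/
import Cfsg.Agent.Lib.M24.Words

set_option autoImplicit false

namespace Cfsg.Agent.Lib.M24

open Cfsg Cfsg.Agent.Lib.Golay Finset

/-- Delete the extra coordinate. -/
def punct (w : GolayPt → ZMod 2) : ZMod 23 → ZMod 2 := fun x => w (some x)

/-- The punctured code, as in the statements. -/
def punctCode : Set (ZMod 23 → ZMod 2) := {u | ∃ w ∈ golayCode, ∀ x : ZMod 23, u x = w (some x)}

lemma mem_punctCode {u : ZMod 23 → ZMod 2} : u ∈ punctCode ↔ ∃ w ∈ golayCode, u = punct w :=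
  ⟨fun ⟨w, hw, h⟩ => ⟨w, hw, funext h⟩, fun ⟨w, hw, h⟩ => ⟨w, hw, fun x => by rw [h]; rfl⟩⟩

/-- The weight after puncturing. -/
lemma card_support_eq_punct (w : GolayPt → ZMod 2) :
    (support₂ w).card = hammingNorm (punct w) + (if w none ≠ 0 then 1 else 0) := by
  unfold support₂ hammingNorm punct
  rw [Finset.card_filter, Finset.card_filter, Fintype.sum_option, add_comm]

lemma hammingNorm_punct_le (w : GolayPt → ZMod 2) : hammingNorm (punct w) ≤ (support₂ w).card := by
  rw [card_support_eq_punct]
  omega

lemma card_le_punct_succ (w : GolayPt → ZMod 2) : (support₂ w).card ≤ hammingNorm (punct w) + 1 := by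
  rw [card_support_eq_punct]
  split_ifs <;> omega

lemma punct_sub (v w : GolayPt → ZMod 2) : punct (v - w) = punct v - punct w := rfl

/-- Puncturing is injective on the code. -/
theorem punct_inj {v w : GolayPt → ZMod 2} (hv : v ∈ golayCode) (hw : w ∈ golayCode)
    (h : punct v = punct w) : v = w := by
  have hc := golayCode.sub_mem hv hw
  have h1 : hammingNorm (punct (v - w)) = 0 := by
    rw [punct_sub, h, sub_self]
    simp
  have h2 := card_le_punct_succ (v - w)
  have h0 := code_min_weight hc (by omega)
  exact sub_eq_zero.1 h0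

/-- Minimum weight seven. -/
theorem punct_min_weight {w : GolayPt → ZMod 2} (hw : w ∈ golayCode) (h : hammingNorm (punct w) < 7) :
    w = 0 := by
  have h2 := card_le_punct_succ w
  exact code_min_weight hw (by omega)

/-- The extension of a word with prescribed parity one. -/
def extOdd (u : ZMod 23 → ZMod 2) : GolayPt → ZMod 2
  | none => 1 + ∑ x, u x
  | some x => u x

lemma parity_extOdd (u : ZMod 23 → ZMod 2) : parity (extOdd u) = 1 := by
  unfold parity
  rw [Fintype.sum_option]
  change 1 + ∑ x, u x + ∑ x, u x = 1
  generalize ∑ x, u x = a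
  revert a
  decide

/-- Perfect three-error-correcting code. -/
theorem punct_covering (u : ZMod 23 → ZMod 2) :
    ∃ w ∈ golayCode, hammingDist u (punct w) ≤ 3 := by
  obtain ⟨v, hv, hc⟩ := exists_leader _ (extOdd u) rfl
  refine ⟨_, hc, ?_⟩
  have h1 : parity v = 1 := by
    have h2 := parity_code hc
    rw [sub_eq_add_word, parity_add, parity_extOdd] at h2
    generalize parity v = a at h2
    revert a
    decide
  have h3 : (support₂ v).card ≤ 3 := by
    rw [parity_eq_card] at h1
    by_contra h
    have h4 : (support₂ v).card = 4 := by omega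
    rw [h4] at h1
    exact absurd h1 (by decide)
  have h4 : hammingDist u (punct (extOdd u - v)) = hammingNorm (punct v) := by
    unfold hammingDist hammingNorm
    apply congrArg Finset.card
    apply Finset.filter_congr
    intro x _
    change u x ≠ u x - v (some x) ↔ v (some x) ≠ 0
    generalize u x = a
    generalize v (some x) = b
    revert a b
    decide
  rw [h4]
  exact (hammingNorm_punct_le v).trans h3

theorem punct_unique {u : ZMod 23 → ZMod 2} {v w : GolayPt → ZMod 2} (hv : v ∈ golayCode)
    (hw : w ∈ golayCode) (h1 : hammingDist u (punct v) ≤ 3) (h2 : hammingDist u (punct w) ≤ 3) :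
    v = w := by
  have h3 : hammingDist (punct v) (punct w) ≤ 6 := by
    have := hammingDist_triangle (punct v) u (punct w)
    rw [hammingDist_comm (punct v) u] at this
    omega
  have h4 : hammingNorm (punct (v - w)) = hammingDist (punct v) (punct w) := by
    unfold hammingDist hammingNorm
    apply congrArg Finset.card
    apply Finset.filter_congr
    intro x _
    change v (some x) - w (some x) ≠ 0 ↔ v (some x) ≠ w (some x)
    exact sub_ne_zero
  have h0 := punct_min_weight (golayCode.sub_mem hv hw) (by omega)
  exact sub_eq_zero.1 h0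

/-- Low bits of a mask: the coordinates other than the extra point. -/
def lowMask : ℕ := 8388607

lemma hammingNorm_punct_wordOf {m : ℕ} (hm : m < 2 ^ 24) :
    hammingNorm (punct (wordOf m)) = pop (m &&& lowMask) := by
  have h1 : (finOf (m &&& lowMask)) = (finOf m).filter (fun p => p ≠ none) := by
    ext p
    rw [mem_finOf, mem_filter, mem_finOf, Nat.testBit_and]
    have hp : lowMask.testBit (idx p) = decide (p ≠ none) := by
      revert p; decide
    rw [hp]
    simp
  rw [← card_finOf (and_lt hm), h1]
  have h2 := card_support_eq_punct (wordOf m)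
  rw [support_wordOf] at h2
  have h3 : ((finOf m).filter (fun p => p ≠ none)).card + ((finOf m).filter (fun p => ¬ p ≠ none)).card
      = (finOf m).card := Finset.card_filter_add_card_filter_not _
  have h4 : ((finOf m).filter (fun p => ¬ p ≠ none)).card = (if wordOf m none ≠ 0 then 1 else 0) := by
    by_cases hn : wordOf m none = 0
    · rw [if_neg (by simpa using hn), Finset.card_eq_zero, filter_eq_empty_iff]
      intro p hp hpn
      have hpn' : p = none := by simpa using hpn
      subst hpn'
      rw [← support_wordOf, mem_support₂] at hp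
      exact hp hn
    · rw [if_pos hn, Finset.card_eq_one]
      refine ⟨none, ?_⟩
      ext p
      simp only [mem_filter, mem_singleton]
      constructor
      · rintro ⟨_, h⟩
        simpa using h
      · rintro rfl
        refine ⟨?_, by simp⟩
        rw [← support_wordOf, mem_support₂]
        exact hn
  omega

/-- The punctured code is parametrised by `Fin 4096`-style indices. -/
lemma punctCode_eq_image :
    punctCode = (fun c => punct (wordOf (comb c))) '' (↑(Finset.range 4096) : Set ℕ) := by
  ext u
  rw [mem_punctCode]
  constructor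
  · rintro ⟨w, hw, rfl⟩
    obtain ⟨c, hc, rfl⟩ := (mem_golayCode_iff w).1 hw
    exact ⟨c, by simpa using hc, rfl⟩
  · rintro ⟨c, hc, rfl⟩
    exact ⟨_, wordOf_comb_mem c, rfl⟩

lemma punct_comb_injOn : Set.InjOn (fun c => punct (wordOf (comb c))) (↑(Finset.range 4096) : Set ℕ) := by
  intro c hc d hd h
  have hc' : c < 4096 := by simpa using hc
  have hd' : d < 4096 := by simpa using hd
  have := punct_inj (wordOf_comb_mem c) (wordOf_comb_mem d) h
  exact comb_injOn hc' hd' (wordOf_injective (comb_lt hc') (comb_lt hd') this)

theorem ncard_punctCode : punctCode.ncard = 4096 := by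
  rw [punctCode_eq_image, punct_comb_injOn.ncard_image, Set.ncard_coe_finset]
  simp

theorem ncard_punct_weight (k : ℕ) : {u : ZMod 23 → ZMod 2 | u ∈ punctCode ∧ hammingNorm u = k}.ncard
    = ((Finset.range 4096).filter (fun c => pop (comb c &&& lowMask) = k)).card := by
  have : {u : ZMod 23 → ZMod 2 | u ∈ punctCode ∧ hammingNorm u = k}
      = (fun c => punct (wordOf (comb c))) ''
          (↑((Finset.range 4096).filter (fun c => pop (comb c &&& lowMask) = k)) : Set ℕ) := by
    ext u
    simp only [Set.mem_ofPred_eq, Set.mem_image, mem_coe, mem_filter, mem_range]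
    constructor
    · rintro ⟨hu, rfl⟩
      rw [punctCode_eq_image] at hu
      obtain ⟨c, hc, rfl⟩ := hu
      have hc' : c < 4096 := by simpa using hc
      exact ⟨c, ⟨hc', (hammingNorm_punct_wordOf (comb_lt hc')).symm⟩, rfl⟩
    · rintro ⟨c, ⟨hc, h⟩, rfl⟩
      refine ⟨mem_punctCode.2 ⟨_, wordOf_comb_mem c, rfl⟩, ?_⟩
      rw [hammingNorm_punct_wordOf (comb_lt hc), h]
  rw [this, (punct_comb_injOn.mono ?_).ncard_image, Set.ncard_coe_finset]
  intro c hc
  exact mem_coe.2 (mem_filter.1 hc).1

end Cfsg.Agent.Lib.M24
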