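/-
The orbits of the stabiliser of the standard sextet on the sextets.
-/
import Cfsg.Agent.Lib.M24.SextetData

set_option autoImplicit false

namespace Cfsg.Agent.Lib.M24

open Cfsg Cfsg.Agent.Lib.Golay Finset MulAction
open scoped Pointwise

lemma sexOK_spec {l : List ℕ} (h : sexOK l = true) : ∃ a rest, l = a :: rest ∧ a < 2 ^ 24 ∧ pop a = 4 ∧
    a.testBit 0 = true ∧ rest.length = 5 ∧ (a :: rest).Nodup ∧ ∀ m ∈ rest, m < 2 ^ 24 ∧ m.testBit 0 = false ∧
      pop m = 4 ∧ a &&& m = 0 ∧ isCodeMask (a ||| m) = true ∧ pop (a ||| m) = 8 := by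
  cases l with
  | nil => simp [sexOK] at h
  | cons a rest =>
    simp only [sexOK, Bool.and_eq_true, decide_eq_true_eq, List.all_eq_true] at h
    obtain ⟨⟨⟨⟨⟨h1, h2⟩, h3⟩, h4⟩, h5⟩, h6⟩ := h
    refine ⟨a, rest, rfl, blt_sound h1, Nat.eq_of_beq_eq_true h2, h3, Nat.eq_of_beq_eq_true h4, h5, fun m hm => ?_⟩
    obtain ⟨⟨⟨⟨⟨h7, h8⟩, h9⟩, h10⟩, h11⟩, h12⟩ := h6 m hm
    refine ⟨blt_sound h7, ?_, Nat.eq_of_beq_eq_true h9, Nat.eq_of_beq_eq_true h10, h11, Nat.eq_of_beq_eq_true h12⟩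
    simpa using h8

lemma finOf_octad {m : ℕ} (hm : m < 2 ^ 24) (h1 : isCodeMask m = true) (h2 : pop m = 8) : finOf m ∈ octads := by
  rw [← support_wordOf]
  apply octad_of_word (isCodeMask_sound h1)
  rw [support_wordOf, card_finOf hm, h2]

lemma qF_eq_sextetOf {l : List ℕ} (h : sexOK l = true) : qF l = sextetOf (finOf (hd0 l)) := by
  obtain ⟨a, rest, rfl, h1, h2, h3, h4, h5, h6⟩ := sexOK_spec h
  have hd : hd0 (a :: rest) = a := rfl
  rw [hd]
  apply Finset.eq_of_subset_of_card_le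
  · intro t ht
    obtain ⟨m, hm, rfl⟩ := mem_qF.1 ht
    rcases List.mem_cons.1 hm with rfl | hm
    · exact mem_sextetOf_self _
    · obtain ⟨h7, -, -, h8, h9, h10⟩ := h6 m hm
      have hoct := finOf_octad (or_lt h1 h7) h9 h10
      refine mem_insert_of_mem (mem_image.2 ⟨finOf (a ||| m), mem_thru.2 ⟨hoct, ?_⟩, ?_⟩)
      · rw [finOf_or]; exact subset_union_left
      · rw [finOf_or, union_sdiff_left]
        apply Finset.sdiff_eq_self_of_disjoint
        rw [Finset.disjoint_left]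
        intro p hp hq
        have : p ∈ finOf (m &&& a) := by
          rw [finOf_and]
          exact mem_inter.2 ⟨hp, hq⟩
        rw [Nat.and_comm, h8] at this
        simp [mem_finOf] at this
  · rw [card_sextetOf (by rw [card_finOf h1, h2]), qF, List.toFinset_card_of_nodup, List.length_map]
    · simp [h4]
    · refine h5.map_on ?_
      intro x hx y hy e
      have hlt : ∀ z ∈ a :: rest, z < 2 ^ 24 := by
        intro z hz
        rcases List.mem_cons.1 hz with rfl | hz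
        · exact h1
        · exact (h6 z hz).1
      exact eq_of_finOf_eq (hlt x hx) (hlt y hy) e

lemma hd0_card {l : List ℕ} (h : sexOK l = true) : (finOf (hd0 l)).card = 4 := by
  obtain ⟨a, rest, rfl, h1, h2, -⟩ := sexOK_spec h
  show (finOf a).card = 4
  rw [card_finOf h1, h2]

lemma qF_mem_sextets {l : List ℕ} (hl : l ∈ sexL) : qF l ∈ sextets := by
  have h := allL_spec sexL_ok l hl
  rw [qF_eq_sextetOf h]
  exact sextetOf_mem (hd0_card h)

lemma sex_inj : Set.InjOn qF {l | l ∈ sexL} := by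
  intro l hl l' hl' e
  have h1 := allL_spec sexL_ok l hl
  have h2 := allL_spec sexL_ok l' hl'
  obtain ⟨a, rest, rfl, -, -, h3, -, -, h6⟩ := sexOK_spec h1
  obtain ⟨a', rest', rfl, h1', -, h3', -, -, h6'⟩ := sexOK_spec h2
  have h4 : finOf a ∈ qF (a' :: rest') := by
    rw [← e]
    exact mem_qF.2 ⟨a, by simp, rfl⟩
  obtain ⟨m, hm, hme⟩ := mem_qF.1 h4
  have hm' : a' = a := by
    have hlta : a < 2 ^ 24 := (sexOK_spec h1).choose_spec.choose_spec.2.1 |> fun h => by
      have := sexOK_spec h1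
      obtain ⟨b, r, e1, h8, -⟩ := this
      rw [List.cons.injEq] at e1
      rw [e1.1]; exact h8
    rcases List.mem_cons.1 hm with rfl | hm
    · exact eq_of_finOf_eq h1' hlta hme
    · have h5 := h6' m hm
      have h7 : m = a := eq_of_finOf_eq h5.1 hlta hme
      rw [h7] at h5
      rw [h3] at h5
      exact absurd h5.2.1 (by simp)
  exact List.inj_on_of_nodup_map sexL_heads hl hl' hm'.symm

/-- The group preserves sextets. -/
lemma smul_sextet {g : Equiv.Perm GolayPt} (hg : g ∈ M24) {X : Finset (Finset GolayPt)} (hX : X ∈ sextets) : g • X ∈ sextets := by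
  obtain ⟨h1, h2, h3⟩ := hX
  refine ⟨by rw [Finset.card_smul_finset]; exact h1, ?_, ?_⟩
  · intro t ht
    obtain ⟨s, hs, rfl⟩ := Finset.mem_smul_finset.1 ht
    rw [Finset.card_smul_finset]
    exact h2 s hs
  · intro t ht u hu hne
    obtain ⟨s, hs, rfl⟩ := Finset.mem_smul_finset.1 ht
    obtain ⟨s', hs', rfl⟩ := Finset.mem_smul_finset.1 hu
    have := smul_octad hg (h3 s hs s' hs' (fun e => hne (by rw [e])))
    rwa [Finset.smul_finset_union] at this

theorem sextets_eq : sextets = qF '' {l | l ∈ sexL} := by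
  symm
  apply Set.eq_of_subset_of_ncard_le
  · rintro _ ⟨l, hl, rfl⟩
    exact qF_mem_sextets hl
  · rw [ncard_sextets, ncard_image_qF_gen sex_inj (List.Nodup.of_map _ sexL_heads), sexL_len]
  · exact Set.toFinite _

lemma exists_list_of_sextet {X : Finset (Finset GolayPt)} (hX : X ∈ sextets) : ∃ l ∈ sexL, X = qF l := by
  rw [sextets_eq] at hX
  obtain ⟨l, hl, rfl⟩ := hX
  exact ⟨l, hl, rfl⟩

lemma s0_nodup : s0.Nodup := by decide +kernel

lemma s0_lt : ∀ u ∈ s0, u < 2 ^ 24 := by decide +kernel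

lemma patF_s0 (m : ℕ) : patF (qF s0) (finOf m) = patN s0 m := patF_finOf s0_nodup s0_lt m

/-- The class of a list expressed on families. -/
lemma hasPat_iff {v : ℕ} {l : List ℕ} (hl : l ∈ sexL) : hasPat v l = true ↔ ∃ t ∈ qF l, patF (qF s0) t = v := by
  rw [hasPat, List.any_eq_true]
  constructor
  · rintro ⟨m, hm, e⟩
    exact ⟨finOf m, mem_qF.2 ⟨m, hm, rfl⟩, by rw [patF_s0]; exact Nat.eq_of_beq_eq_true e⟩
  · rintro ⟨t, ht, e⟩
    obtain ⟨m, hm, rfl⟩ := mem_qF.1 ht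
    refine ⟨m, hm, ?_⟩
    rw [patF_s0] at e
    rw [e]
    exact Nat.beq_refl _

/-- The orbit of a sextet under the standard stabiliser. -/
theorem orbit_std {r : ℕ × ℕ} (hr : r ∈ repsS) {lr : List ℕ} (hl : lr ∈ sexL) (hm : r.2 ∈ lr)
    (hp : patN s0 r.2 = r.1) :
    orbit (stabilizer M24 (qF s0)) (qF lr) = qF '' {l | l ∈ sexL.filter (hasPat r.1)} := by
  ext Y
  constructor
  · rintro ⟨⟨g, hg⟩, rfl⟩
    have h1 : (g : Equiv.Perm GolayPt) • qF lr ∈ sextets := smul_sextet g.2 (qF_mem_sextets hl)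
    obtain ⟨l', hl', e⟩ := exists_list_of_sextet h1
    refine ⟨l', List.mem_filter.2 ⟨hl', ?_⟩, e.symm⟩
    rw [hasPat_iff hl']
    refine ⟨(g : Equiv.Perm GolayPt) • finOf r.2, ?_, ?_⟩
    · rw [← e]
      exact Finset.smul_mem_smul_finset (mem_qF.2 ⟨r.2, hm, rfl⟩)
    · rw [patF_smul (mem_stabilizer_iff.1 hg), patF_s0, hp]
  · rintro ⟨l', hl', rfl⟩
    obtain ⟨hl1, hl2⟩ := List.mem_filter.1 hl'
    obtain ⟨t, ht, e⟩ := (hasPat_iff hl1).1 hl2
    obtain ⟨m', hm', rfl⟩ := mem_qF.1 ht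
    rw [patF_s0] at e
    obtain ⟨g, hg, hge⟩ := reach_of_orbCheck (tabIn_of_gensQ gensS_ok) orbS_ok hr
      (List.mem_flatten.2 ⟨l', hl1, hm'⟩) e
    refine ⟨⟨⟨g, (mem_SQ.1 hg).1⟩, mem_stab_of_SQ hg⟩, ?_⟩
    show g • qF lr = qF l'
    have h1 : g • qF lr ∈ sextets := smul_sextet (mem_SQ.1 hg).1 (qF_mem_sextets hl)
    have h2 : finOf m' ∈ g • qF lr := by
      rw [← hge]
      exact Finset.smul_mem_smul_finset (mem_qF.2 ⟨r.2, hm, rfl⟩)
    rw [sextet_eq h1 h2]
    exact (sextet_eq (qF_mem_sextets hl1) ht).symm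

theorem orbit8 : orbit (stabilizer M24 (qF s0)) (qF l8) = qF '' {l | l ∈ sexL.filter (hasPat 8)} :=
  orbit_std (r := (8, _)) (by decide +kernel) l8_mem r8_mem r8_pat

theorem orbit10 : orbit (stabilizer M24 (qF s0)) (qF l10) = qF '' {l | l ∈ sexL.filter (hasPat 10)} :=
  orbit_std (r := (10, _)) (by decide +kernel) l10_mem r10_mem r10_pat

theorem orbit6 : orbit (stabilizer M24 (qF s0)) (qF l6) = qF '' {l | l ∈ sexL.filter (hasPat 6)} :=
  orbit_std (r := (6, _)) (by decide +kernel) l6_mem r6_mem r6_pat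

lemma ncard_filter (v : ℕ) : (qF '' {l | l ∈ sexL.filter (hasPat v)}).ncard = (sexL.filter (hasPat v)).length := by
  apply ncard_image_qF_gen
  · exact sex_inj.mono (fun l hl => (List.mem_filter.1 hl).1)
  · exact (List.Nodup.of_map _ sexL_heads).filter _

/-- The sextets by orbits. -/
theorem sextets_union : sextets = {qF s0} ∪ qF '' {l | l ∈ sexL.filter (hasPat 8)} ∪ qF '' {l | l ∈ sexL.filter (hasPat 10)} ∪
    qF '' {l | l ∈ sexL.filter (hasPat 6)} := by
  ext Y
  constructor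
  · intro hY
    obtain ⟨l, hl, rfl⟩ := exists_list_of_sextet hY
    have h := allL_spec sexL_cover l hl
    simp only [Bool.or_eq_true] at h
    rcases h with ((h | h) | h) | h
    · rw [eqL_sound h]; simp
    · exact Or.inl (Or.inl (Or.inr ⟨l, List.mem_filter.2 ⟨hl, h⟩, rfl⟩))
    · exact Or.inl (Or.inr ⟨l, List.mem_filter.2 ⟨hl, h⟩, rfl⟩)
    · exact Or.inr ⟨l, List.mem_filter.2 ⟨hl, h⟩, rfl⟩
  · have hok : ∀ v l, l ∈ sexL.filter (hasPat v) → qF l ∈ sextets := fun v l hl => qF_mem_sextets (List.mem_filter.1 hl).1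
    rintro (((h | h) | h) | h)
    · rw [h]; exact qF_mem_sextets s0_mem
    · obtain ⟨y, hy, rfl⟩ := h
      exact hok _ _ hy
    · obtain ⟨y, hy, rfl⟩ := h
      exact hok _ _ hy
    · obtain ⟨y, hy, rfl⟩ := h
      exact hok _ _ hy

/-- The group is transitive on sextets. -/
theorem exists_to_s0 {S : Finset (Finset GolayPt)} (hS : S ∈ sextets) (T : Finset (Finset GolayPt)) (hT : T ∈ sextets) :
    ∃ k : ↥M24, k • S = T := by
  obtain ⟨t, ht⟩ : S.Nonempty := by
    rw [← Finset.card_pos, hS.1]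
    norm_num
  obtain ⟨t', ht'⟩ : T.Nonempty := by
    rw [← Finset.card_pos, hT.1]
    norm_num
  have c1 := hS.2.1 t ht
  have c2 := hT.2.1 t' ht'
  obtain ⟨g, hg, e⟩ := exists_map_set (s := t) (s' := t') (by omega) (by omega)
  refine ⟨⟨g, hg⟩, ?_⟩
  show g • S = T
  have h1 := smul_sextet hg hS
  have h2 : t' ∈ g • S := by
    rw [← e]
    exact Finset.smul_mem_smul_finset ht
  rw [sextet_eq h1 h2]
  exact (sextet_eq hT ht').symm

open Classical in
/-- The class of a sextet. -/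
noncomputable def clsS (Y : Finset (Finset GolayPt)) : ℕ :=
  if ∃ t ∈ Y, patF (qF s0) t = 8 then 0 else if ∃ t ∈ Y, patF (qF s0) t = 10 then 1 else
    if ∃ t ∈ Y, patF (qF s0) t = 6 then 2 else 3

lemma clsS_qF {l : List ℕ} (hl : l ∈ sexL) : clsS (qF l) = if hasPat 8 l then 0 else if hasPat 10 l then 1 else if hasPat 6 l then 2 else 3 := by
  simp only [clsS, ← hasPat_iff hl]

lemma clsS_0 {l : List ℕ} (hl : l ∈ sexL) : clsS (qF l) = 0 ↔ hasPat 8 l = true := by
  rw [clsS_qF hl]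
  split_ifs with h1 h2 h3 <;> simp_all

lemma clsS_1 {l : List ℕ} (hl : l ∈ sexL) : clsS (qF l) = 1 ↔ hasPat 10 l = true := by
  have h0 := allL_spec sexL_s0 l hl
  simp only [Bool.or_eq_true, Bool.not_eq_true', Bool.and_eq_true] at h0
  rw [clsS_qF hl]
  split_ifs with h1 h2 h3 <;> simp_all

lemma clsS_2 {l : List ℕ} (hl : l ∈ sexL) : clsS (qF l) = 2 ↔ hasPat 6 l = true := by
  have h0 := allL_spec sexL_s0 l hl
  have h00 := allL_spec sexL_s1 l hl
  simp only [Bool.or_eq_true, Bool.not_eq_true', Bool.and_eq_true] at h0 h00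
  rw [clsS_qF hl]
  split_ifs with h1 h2 h3 <;> simp_all

lemma clsS_3 {l : List ℕ} (hl : l ∈ sexL) : clsS (qF l) = 3 ↔ l = s0 := by
  have h := allL_spec sexL_cover l hl
  simp only [Bool.or_eq_true] at h
  have h1 := s0_pats
  rw [clsS_qF hl]
  constructor
  · intro e
    rcases h with ((h | h) | h) | h
    · exact eqL_sound h
    · split_ifs at e <;> first | omega | simp_all
    · split_ifs at e <;> first | omega | simp_all
    · split_ifs at e <;> first | omega | simp_all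
  · rintro rfl
    simp [h1.1, h1.2.1, h1.2.2]

lemma clsS_lt {Y : Finset (Finset GolayPt)} : clsS Y < 4 := by
  unfold clsS
  split_ifs <;> norm_num

/-- Maximality of the standard stabiliser. -/
theorem coatom_s0 : IsCoatom (stabilizer M24 (qF s0)) := by
  have hs00 : qF s0 ∈ sextets := qF_mem_sextets s0_mem
  have hcl : ∀ (v : ℕ) (w : ℕ), (∀ l, l ∈ sexL → (clsS (qF l) = w ↔ hasPat v l = true)) →
      {y | y ∈ sextets ∧ clsS y = w}.ncard = (sexL.filter (hasPat v)).length := by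
    intro v w hvw
    rw [← ncard_filter v]
    congr 1
    ext Y
    constructor
    · rintro ⟨hY, hc⟩
      obtain ⟨l, hl, rfl⟩ := exists_list_of_sextet hY
      exact ⟨l, List.mem_filter.2 ⟨hl, (hvw l hl).1 hc⟩, rfl⟩
    · rintro ⟨l, hl, rfl⟩
      obtain ⟨h1, h2⟩ := List.mem_filter.1 hl
      exact ⟨qF_mem_sextets h1, (hvw l h1).2 h2⟩
  have hsame : ∀ y ∈ sextets, ∀ y' ∈ sextets, clsS y = clsS y' → ∃ g ∈ stabilizer M24 (qF s0), g • y = y' := by
    intro y hy y' hy' hc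
    obtain ⟨l, hl, rfl⟩ := exists_list_of_sextet hy
    obtain ⟨l', hl', rfl⟩ := exists_list_of_sextet hy'
    have key : ∀ {x : List ℕ} {v : ℕ}, orbit (stabilizer M24 (qF s0)) (qF x) = qF '' {l | l ∈ sexL.filter (hasPat v)} →
        hasPat v l = true → hasPat v l' = true → ∃ g ∈ stabilizer M24 (qF s0), g • qF l = qF l' := by
      intro x v e h1 h2
      have a1 : qF l ∈ orbit (stabilizer M24 (qF s0)) (qF x) := by
        rw [e]
        exact ⟨l, List.mem_filter.2 ⟨hl, h1⟩, rfl⟩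
      have a2 : qF l' ∈ orbit (stabilizer M24 (qF s0)) (qF x) := by
        rw [e]
        exact ⟨l', List.mem_filter.2 ⟨hl', h2⟩, rfl⟩
      obtain ⟨⟨g1, hg1⟩, e1⟩ := a1
      obtain ⟨⟨g2, hg2⟩, e2⟩ := a2
      refine ⟨g2 * g1⁻¹, Subgroup.mul_mem _ hg2 (Subgroup.inv_mem _ hg1), ?_⟩
      have e1' : g1 • qF x = qF l := e1
      have e2' : g2 • qF x = qF l' := e2
      rw [← e1', ← e2', mul_smul, inv_smul_smul]
    have hlt := clsS_lt (Y := qF l)
    have hcases : clsS (qF l) = 0 ∨ clsS (qF l) = 1 ∨ clsS (qF l) = 2 ∨ clsS (qF l) = 3 := by omega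
    rcases hcases with h | h | h | h
    · exact key orbit8 ((clsS_0 hl).1 h) ((clsS_0 hl').1 (hc ▸ h))
    · exact key orbit10 ((clsS_1 hl).1 h) ((clsS_1 hl').1 (hc ▸ h))
    · exact key orbit6 ((clsS_2 hl).1 h) ((clsS_2 hl').1 (hc ▸ h))
    · have e1 := (clsS_3 hl).1 h
      have e2 := (clsS_3 hl').1 (hc ▸ h)
      rw [e1, e2]
      exact ⟨1, Subgroup.one_mem _, one_smul _ _⟩
  refine isCoatom_of_classesN (k := 4) (qF s0) sextets ?_ clsS (fun y _ => clsS_lt) ![90, 240, 1440, 1] ?_ hsame ?_ ?_ 3 ?_ (by decide +kernel)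
  · intro y
    constructor
    · intro hy
      exact exists_to_s0 hs00 y hy
    · rintro ⟨g, rfl⟩
      exact smul_sextet g.2 hs00
  · intro i
    fin_cases i
    · show {y | y ∈ sextets ∧ clsS y = 0}.ncard = 90
      rw [hcl 8 0 (fun l hl => clsS_0 hl), count8]
    · show {y | y ∈ sextets ∧ clsS y = 1}.ncard = 240
      rw [hcl 10 1 (fun l hl => clsS_1 hl), count10]
    · show {y | y ∈ sextets ∧ clsS y = 2}.ncard = 1440
      rw [hcl 6 2 (fun l hl => clsS_2 hl), count6]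
    · show {y | y ∈ sextets ∧ clsS y = 3}.ncard = 1
      have : {y | y ∈ sextets ∧ clsS y = 3} = {qF s0} := by
        ext Y
        constructor
        · rintro ⟨hY, hc⟩
          obtain ⟨l, hl, rfl⟩ := exists_list_of_sextet hY
          rw [(clsS_3 hl).1 hc]
          rfl
        · rintro rfl
          exact ⟨hs00, (clsS_3 s0_mem).2 rfl⟩
      rw [this, Set.ncard_singleton]
  · intro y hy hc
    obtain ⟨l, hl, rfl⟩ := exists_list_of_sextet hy
    have h3 : clsS (qF s0) = 3 := (clsS_3 s0_mem).2 rfl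
    rw [h3] at hc
    rw [(clsS_3 hl).1 hc]
  · refine ⟨qF l8, qF_mem_sextets l8_mem, ?_⟩
    intro e
    have h3 : clsS (qF s0) = 3 := (clsS_3 s0_mem).2 rfl
    rw [← e] at h3
    exact absurd ((clsS_3 l8_mem).1 h3) (by decide +kernel)
  · exact ((clsS_3 s0_mem).2 rfl).symm

end Cfsg.Agent.Lib.M24
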