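/-
The structure of the stabiliser of a sextet.
-/
import Cfsg.Agent.Lib.M24.SextetStabData

set_option autoImplicit false

namespace Cfsg.Agent.Lib.M24

open Cfsg Cfsg.Agent.Lib.Golay Finset MulAction
open scoped Pointwise

theorem card_of_perm_list {H : Subgroup (Equiv.Perm GolayPt)} {L : List ℕ}
    (hL : ∀ a ∈ L, ∃ g ∈ H, Act a g) (hH : ∀ g ∈ H, ∃ a ∈ L, Act a g)
    (hnd : (L.map tabKey).Nodup) : Nat.card H = L.length := by
  classical
  have hnd' : L.Nodup := List.Nodup.of_map _ hnd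
  choose! f hf1 hf2 using hL
  let F : {a // a ∈ L} → H := fun a => ⟨f a.1, hf1 a.1 a.2⟩
  have hF : Function.Bijective F := by
    constructor
    · rintro ⟨a, ha⟩ ⟨b, hb⟩ h
      have h1 : f a = f b := congrArg Subtype.val h
      have h2 : Act b (f a) := by
        rw [h1]; exact hf2 b hb
      have h3 := tabKey_eq (hf2 a ha) h2
      have := List.inj_on_of_nodup_map hnd ha hb h3
      exact Subtype.ext this
    · rintro ⟨g, hg⟩
      obtain ⟨a, ha, hag⟩ := hH g hg
      refine ⟨⟨a, ha⟩, Subtype.ext ?_⟩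
      exact act_unique (hf2 a ha) hag
  rw [← Nat.card_congr (Equiv.ofBijective F hF), Nat.card_eq_fintype_card,
    Fintype.card_of_subtype L.toFinset (fun x => List.mem_toFinset), List.toFinset_card_of_nodup hnd']

lemma sextet_perms {S : Finset (Finset GolayPt)} (hS : S ∈ sextets) (e : Equiv.Perm ↥S) :
    ∃ g ∈ stabilizer M24 S, ∀ t : ↥S, (g : Equiv.Perm GolayPt) • (t : Finset GolayPt) = ((e t : ↥S) : Finset GolayPt) := by
  obtain ⟨k, hk⟩ := exists_to_s0 hS _ (qF_mem_sextets s0_mem)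
  exact all_perms_of_swaps (swaps_of_check swap_check k hk) e

lemma card_stab_sextet {S : Finset (Finset GolayPt)} (hS : S ∈ sextets) : Nat.card (stabilizer M24 S) = 138240 :=
  card_stab_of_trans hS (fun _ hg _ hY => smul_sextet hg hY) (fun Y hY => exists_to_s0 hS Y hY) ncard_sextets
    (by norm_num) (by norm_num)

lemma card_KS_sextet {S : Finset (Finset GolayPt)} (hS : S ∈ sextets) : Nat.card (KS S) = 192 :=
  card_KS_of_perms hS.1 (card_stab_sextet hS) (by decide) (sextet_perms hS)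

lemma mem_KS_qF {l : List ℕ} {g : Equiv.Perm GolayPt} : g ∈ KS (qF l) ↔ g ∈ SM l := by
  constructor
  · rintro ⟨h1, h2⟩
    exact ⟨h1, fun m hm => h2 _ (mem_qF.2 ⟨m, hm, rfl⟩)⟩
  · rintro ⟨h1, h2⟩
    refine ⟨h1, fun t ht => ?_⟩
    obtain ⟨m, hm, rfl⟩ := mem_qF.1 ht
    exact h2 m hm

lemma KS_qF (l : List ℕ) : KS (qF l) = SM l := by
  ext g
  exact mem_KS_qF

lemma complete192 : ∀ g ∈ SM s0, ∃ p ∈ L192, Act p.1 g := by
  apply list_complete
  · intro p hp
    obtain ⟨g, hg, ha, -⟩ := exists_of_genIn (allL_spec L192_in p hp)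
    exact ⟨g, hg, ha⟩
  · exact nodup_of_ascL L192_asc
  · rw [← KS_qF, card_KS_sextet (qF_mem_sextets s0_mem), L192_len]

lemma sq_of_table {a : ℕ} {g : Equiv.Perm GolayPt} (h : Act a g) : g * g = 1 ↔ sqOK a = true := by
  constructor
  · intro e
    refine allL_iff.2 fun i hi => ?_
    have hi' := List.mem_range.1 hi
    have h1 : look a i = idx (g (pt i)) := look_of_act h hi'
    have h2 : look a (look a i) = i := by
      rw [h1, ← h, ← Equiv.Perm.mul_apply, e]
      simp [idx_pt hi']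
    rw [h2]
    exact Nat.beq_refl _
  · intro e
    apply Equiv.ext
    intro p
    apply idx_injective
    have h1 := Nat.eq_of_beq_eq_true (allL_spec e (idx p) (List.mem_range.2 (idx_lt p)))
    rw [Equiv.Perm.mul_apply, h, h, h1]
    rfl

lemma comm_of_table {a b : ℕ} {g h : Equiv.Perm GolayPt} (ha : Act a g) (hb : Act b h) (e : cmOK a b = true) : g * h = h * g := by
  apply Equiv.ext
  intro p
  apply idx_injective
  have h1 := Nat.eq_of_beq_eq_true (allL_spec e (idx p) (List.mem_range.2 (idx_lt p)))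
  rw [Equiv.Perm.mul_apply, Equiv.Perm.mul_apply, ha, hb, hb, ha, h1]

lemma mem_L64 {g : Equiv.Perm GolayPt} (hg : g ∈ SM s0) (h2 : g * g = 1) : ∃ p ∈ L64, Act p.1 g := by
  obtain ⟨p, hp, ha⟩ := complete192 g hg
  exact ⟨p, List.mem_filter.2 ⟨hp, (sq_of_table ha).1 h2⟩, ha⟩

/-- Commutation of involutions of the kernel. -/
lemma comm_std {g h : Equiv.Perm GolayPt} (hg : g ∈ SM s0) (hh : h ∈ SM s0) (h1 : g * g = 1) (h2 : h * h = 1) : g * h = h * g := by
  obtain ⟨p, hp, ha⟩ := mem_L64 hg h1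
  obtain ⟨q, hq, hb⟩ := mem_L64 hh h2
  exact comm_of_table ha hb (allL_spec (allL_spec L64_comm p hp) q hq)

lemma comm_KS {S : Finset (Finset GolayPt)} (hS : S ∈ sextets) {g h : Equiv.Perm GolayPt} (hg : g ∈ KS S) (hh : h ∈ KS S)
    (h1 : g * g = 1) (h2 : h * h = 1) : g * h = h * g := by
  obtain ⟨k, hk⟩ := exists_to_s0 hS _ (qF_mem_sextets s0_mem)
  set K : Equiv.Perm GolayPt := (k : Equiv.Perm GolayPt) with hK
  have c1 := (conj_mem_KS k hk g).1 hg
  have c2 := (conj_mem_KS k hk h).1 hh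
  have s1 : (K * g * K⁻¹) * (K * g * K⁻¹) = 1 := by
    have : (K * g * K⁻¹) * (K * g * K⁻¹) = K * (g * g) * K⁻¹ := by group
    rw [this, h1]
    group
  have s2 : (K * h * K⁻¹) * (K * h * K⁻¹) = 1 := by
    have : (K * h * K⁻¹) * (K * h * K⁻¹) = K * (h * h) * K⁻¹ := by group
    rw [this, h2]
    group
  have e := comm_std c1 c2 s1 s2
  have e1 : (K * g * K⁻¹) * (K * h * K⁻¹) = K * (g * h) * K⁻¹ := by group
  have e2 : (K * h * K⁻¹) * (K * g * K⁻¹) = K * (h * g) * K⁻¹ := by group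
  rw [e1, e2] at e
  exact mul_left_cancel (mul_right_cancel e)

/-- The involutions and the identity of the kernel form a subgroup. -/
def NP {S : Finset (Finset GolayPt)} (hS : S ∈ sextets) : Subgroup (Equiv.Perm GolayPt) where
  carrier := {g | g ∈ KS S ∧ g * g = 1}
  one_mem' := ⟨Subgroup.one_mem _, mul_one 1⟩
  mul_mem' := by
    rintro a b ⟨ha, ha'⟩ ⟨hb, hb'⟩
    refine ⟨Subgroup.mul_mem _ ha hb, ?_⟩
    have e := comm_KS hS ha hb ha' hb'
    calc a * b * (a * b) = a * (b * a) * b := by group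
      _ = a * (a * b) * b := by rw [e]
      _ = (a * a) * (b * b) := by group
      _ = 1 := by rw [ha', hb', one_mul]
  inv_mem' := by
    rintro a ⟨ha, ha'⟩
    refine ⟨Subgroup.inv_mem _ ha, ?_⟩
    have : a⁻¹ = a := (mul_eq_one_iff_inv_eq.1 ha')
    rw [this]
    exact ha'

lemma mem_NP {S : Finset (Finset GolayPt)} {hS : S ∈ sextets} {g : Equiv.Perm GolayPt} : g ∈ NP hS ↔ g ∈ KS S ∧ g * g = 1 := Iff.rfl

lemma card_NP_std : Nat.card (NP (qF_mem_sextets s0_mem)) = 64 := by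
  have h := card_of_perm_list (H := NP (qF_mem_sextets s0_mem)) (L := L64.map Prod.fst) ?_ ?_ ?_
  · rw [h, List.length_map, L64_len]
  · intro a ha
    obtain ⟨p, hp, rfl⟩ := List.mem_map.1 ha
    obtain ⟨h1, h2⟩ := List.mem_filter.1 hp
    obtain ⟨g, hg, ha', -⟩ := exists_of_genIn (allL_spec L192_in p h1)
    exact ⟨g, ⟨mem_KS_qF.2 hg, (sq_of_table ha').2 h2⟩, ha'⟩
  · rintro g ⟨h1, h2⟩
    obtain ⟨p, hp, ha⟩ := mem_L64 (mem_KS_qF.1 h1) h2
    exact ⟨p.1, List.mem_map_of_mem hp, ha⟩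
  · have h1 := nodup_of_ascL L192_asc
    rw [List.map_map] at h1 ⊢
    exact h1.sublist (List.Sublist.map _ List.filter_sublist)

lemma card_NP {S : Finset (Finset GolayPt)} (hS : S ∈ sextets) : Nat.card (NP hS) = 64 := by
  obtain ⟨k, hk⟩ := exists_to_s0 hS _ (qF_mem_sextets s0_mem)
  rw [← card_NP_std]
  apply Nat.card_congr
  apply (conjEquivOfIff (k : Equiv.Perm GolayPt) _).toEquiv
  intro g
  set K : Equiv.Perm GolayPt := (k : Equiv.Perm GolayPt) with hK
  rw [mem_NP, mem_NP, mem_KS_qF, conj_mem_KS k hk g]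
  refine and_congr_right fun _ => ?_
  have e : (K * g * K⁻¹) * (K * g * K⁻¹) = K * (g * g) * K⁻¹ := by group
  rw [e]
  constructor
  · intro h
    rw [h]
    group
  · intro h
    have : g * g = K⁻¹ * (K * (g * g) * K⁻¹) * K := by group
    rw [this, h]
    group

/-- The statement on the stabiliser of a sextet. -/
theorem sextet_structure {S : Finset (Finset GolayPt)} (hS : S ∈ sextets) :
    ∃ N : Subgroup ↥(stabilizer M24 S), N.Normal ∧ Nat.card N = 64 ∧ ∀ x ∈ N, x * x = 1 := by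
  refine ⟨(NP hS).comap (M24.subtype.comp (stabilizer M24 S).subtype), ?_, ?_, ?_⟩
  · constructor
    intro n hn y
    have hn' : ((n : ↥M24) : Equiv.Perm GolayPt) ∈ NP hS := hn
    obtain ⟨⟨h1, h2⟩, h3⟩ := hn'
    show (((y * n * y⁻¹ : ↥(stabilizer M24 S)) : ↥M24) : Equiv.Perm GolayPt) ∈ NP hS
    set Y : Equiv.Perm GolayPt := ((y : ↥M24) : Equiv.Perm GolayPt) with hY
    set X : Equiv.Perm GolayPt := ((n : ↥M24) : Equiv.Perm GolayPt) with hX
    have hYm : Y ∈ M24 := (y : ↥M24).2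
    have hYS : Y • S = S := mem_stabilizer_iff.1 y.2
    have e : (((y * n * y⁻¹ : ↥(stabilizer M24 S)) : ↥M24) : Equiv.Perm GolayPt) = Y * X * Y⁻¹ := rfl
    rw [e]
    refine ⟨⟨M24.mul_mem (M24.mul_mem hYm h1) (M24.inv_mem hYm), fun t ht => ?_⟩, ?_⟩
    · have hYS' : Y⁻¹ • S = S := by rw [inv_smul_eq_iff, hYS]
      have h4 : Y⁻¹ • t ∈ S := by
        have := Finset.smul_mem_smul_finset (a := Y⁻¹) ht
        rwa [hYS'] at this
      rw [mul_smul, mul_smul, h2 _ h4, smul_inv_smul]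
    · have : (Y * X * Y⁻¹) * (Y * X * Y⁻¹) = Y * (X * X) * Y⁻¹ := by group
      rw [this, h3]
      group
  · rw [← card_NP hS]
    apply Nat.card_congr
    exact
      { toFun := fun x => ⟨((x.1 : ↥(stabilizer M24 S)) : ↥M24), x.2⟩
        invFun := fun g => ⟨⟨⟨g.1, g.2.1.1⟩, mem_stabilizer_iff.2 (by
            apply Finset.eq_of_subset_of_card_le
            · intro u hu
              obtain ⟨t, ht, rfl⟩ := Finset.mem_smul_finset.1 hu
              show g.1 • t ∈ S
              rw [g.2.1.2 t ht]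
              exact ht
            · exact le_of_eq (Finset.card_smul_finset _ _).symm)⟩, g.2⟩
        left_inv := fun x => rfl
        right_inv := fun g => rfl }
  · intro x hx
    have hx' : ((x : ↥M24) : Equiv.Perm GolayPt) ∈ NP hS := hx
    apply Subtype.ext
    apply Subtype.ext
    exact hx'.2

end Cfsg.Agent.Lib.M24
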