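/-
Stabilisers of families of subsets: induced permutations of the members, sizes of the kernel of
the action on the members.
-/
import Cfsg.Agent.Lib.M24.Family
import Cfsg.Agent.Lib.M24.M11

set_option autoImplicit false

namespace Cfsg.Agent.Lib.M24

open Cfsg Cfsg.Agent.Lib.Golay Finset MulAction
open scoped Pointwise

/-- An element swapping two masks and fixing the other members of a list. -/
noncomputable def isSwap (l : List ℕ) (p : ℕ × ℕ) (x y : ℕ) : Bool :=
  genOK p.1 p.2 && forceN (mkTab p.1) fun T =>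
    Nat.beq (pimgT T x) y && Nat.beq (pimgT T y) x && l.all (fun m => Nat.beq m x || Nat.beq m y || Nat.beq (pimgT T m) m)

lemma isSwap_spec {l : List ℕ} {p : ℕ × ℕ} {x y : ℕ} (h : isSwap l p x y = true) :
    ∃ g ∈ M24, g • finOf x = finOf y ∧ g • finOf y = finOf x ∧ ∀ m ∈ l, m ≠ x → m ≠ y → g • finOf m = finOf m := by
  simp only [isSwap, Bool.and_eq_true, forceN_eq, List.all_eq_true, Bool.or_eq_true] at h
  obtain ⟨h1, ⟨h2, h3⟩, h4⟩ := h
  obtain ⟨g, hg, ha, -⟩ := exists_of_genOK h1
  have hT := smul_finOf_of_act ha (tabOK_mkTab_of_genOK h1)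
  refine ⟨g, hg, ?_, ?_, ?_⟩
  · rw [hT, Nat.eq_of_beq_eq_true h2]
  · rw [hT, Nat.eq_of_beq_eq_true h3]
  · intro m hm hx hy
    rcases h4 m hm with (h | h) | h
    · exact absurd (Nat.eq_of_beq_eq_true h) hx
    · exact absurd (Nat.eq_of_beq_eq_true h) hy
    · rw [hT, Nat.eq_of_beq_eq_true h]

/-- Swaps of members of a family transported from a list. -/
theorem swaps_of_check {l : List ℕ} {sw : List (ℕ × ℕ)}
    (hc : allL (fun x => allL (fun y => Nat.beq x y || sw.any (fun p => isSwap l p x y)) l) l = true)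
    {S : Finset (Finset GolayPt)} (k : ↥M24) (hk : k • S = qF l) :
    ∀ a ∈ S, ∀ b ∈ S, a ≠ b → ∃ g ∈ stabilizer M24 S, (g : Equiv.Perm GolayPt) • a = b ∧
      (g : Equiv.Perm GolayPt) • b = a ∧ ∀ t ∈ S, t ≠ a → t ≠ b → (g : Equiv.Perm GolayPt) • t = t := by
  intro a ha b hb hab
  have hm : ∀ t ∈ S, ∃ m ∈ l, finOf m = (k : Equiv.Perm GolayPt) • t := by
    intro t ht
    have : (k : Equiv.Perm GolayPt) • t ∈ qF l := by
      rw [← hk]
      exact Finset.smul_mem_smul_finset ht
    exact mem_qF.1 this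
  obtain ⟨x, hx, ex⟩ := hm a ha
  obtain ⟨y, hy, ey⟩ := hm b hb
  have hxy : x ≠ y := by
    rintro rfl
    apply hab
    rw [ex] at ey
    exact MulAction.injective (k : Equiv.Perm GolayPt) ey
  have h1 := allL_spec (allL_spec hc x hx) y hy
  rw [Bool.or_eq_true] at h1
  rcases h1 with h1 | h1
  · exact absurd (Nat.eq_of_beq_eq_true h1) hxy
  obtain ⟨p, -, h2⟩ := List.any_eq_true.1 h1
  obtain ⟨g0, hg0, e1, e2, e3⟩ := isSwap_spec h2
  set K : Equiv.Perm GolayPt := (k : Equiv.Perm GolayPt) with hK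
  have hKm : K ∈ M24 := k.2
  set g : Equiv.Perm GolayPt := K⁻¹ * g0 * K with hg
  have hgm : g ∈ M24 := M24.mul_mem (M24.mul_mem (M24.inv_mem hKm) hg0) hKm
  have ga : g • a = b := by
    rw [hg, mul_smul, mul_smul, ← ex, e1, ey, inv_smul_smul]
  have gb : g • b = a := by
    rw [hg, mul_smul, mul_smul, ← ey, e2, ex, inv_smul_smul]
  have gt : ∀ t ∈ S, t ≠ a → t ≠ b → g • t = t := by
    intro t ht hta htb
    obtain ⟨m, hm', em⟩ := hm t ht
    have hmx : m ≠ x := by
      rintro rfl
      rw [ex] at em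
      exact hta (MulAction.injective K em).symm
    have hmy : m ≠ y := by
      rintro rfl
      rw [ey] at em
      exact htb (MulAction.injective K em).symm
    rw [hg, mul_smul, mul_smul, ← em, e3 m hm' hmx hmy, em, inv_smul_smul]
  have hst : g • S = S := by
    apply Finset.eq_of_subset_of_card_le
    · intro u hu
      obtain ⟨t, ht, rfl⟩ := Finset.mem_smul_finset.1 hu
      by_cases hta : t = a
      · rw [hta, ga]; exact hb
      by_cases htb : t = b
      · rw [htb, gb]; exact ha
      rw [gt t ht hta htb]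
      exact ht
    · rw [Finset.card_smul_finset]
  exact ⟨⟨g, hgm⟩, mem_stabilizer_iff.2 hst, ga, gb, gt⟩

/-- Every permutation of the members of a family is induced, given the transpositions. -/
theorem all_perms_of_swaps {S : Finset (Finset GolayPt)}
    (h : ∀ a ∈ S, ∀ b ∈ S, a ≠ b → ∃ g ∈ stabilizer M24 S, (g : Equiv.Perm GolayPt) • a = b ∧
      (g : Equiv.Perm GolayPt) • b = a ∧ ∀ t ∈ S, t ≠ a → t ≠ b → (g : Equiv.Perm GolayPt) • t = t)
    (e : Equiv.Perm ↥S) :
    ∃ g ∈ stabilizer M24 S, ∀ t : ↥S, (g : Equiv.Perm GolayPt) • (t : Finset GolayPt) = ((e t : ↥S) : Finset GolayPt) := by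
  classical
  induction e using Equiv.Perm.swap_induction_on with
  | one => exact ⟨1, Subgroup.one_mem _, fun t => one_smul _ _⟩
  | swap_mul f x y hxy ih =>
    obtain ⟨g, hg, hgf⟩ := ih
    have hne : (x : Finset GolayPt) ≠ y := fun e => hxy (Subtype.ext e)
    obtain ⟨g', hg', e1, e2, e3⟩ := h x x.2 y y.2 hne
    refine ⟨g' * g, Subgroup.mul_mem _ hg' hg, ?_⟩
    intro t
    show ((g' * g : ↥M24) : Equiv.Perm GolayPt) • (t : Finset GolayPt) = _
    rw [Subgroup.coe_mul, mul_smul, hgf t, Equiv.Perm.mul_apply]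
    by_cases hx : f t = x
    · rw [hx, e1, Equiv.swap_apply_left]
    by_cases hy : f t = y
    · rw [hy, e2, Equiv.swap_apply_right]
    rw [Equiv.swap_apply_of_ne_of_ne hx hy]
    exact e3 _ (f t).2 (fun e => hx (Subtype.ext e)) (fun e => hy (Subtype.ext e))

/-- The kernel of the action of a stabiliser on the members of the family. -/
def KS (S : Finset (Finset GolayPt)) : Subgroup (Equiv.Perm GolayPt) where
  carrier := {g | g ∈ M24 ∧ ∀ t ∈ S, g • t = t}
  one_mem' := ⟨M24.one_mem, fun _ _ => one_smul _ _⟩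
  mul_mem' := by
    rintro a b ⟨ha, ha'⟩ ⟨hb, hb'⟩
    refine ⟨M24.mul_mem ha hb, fun t ht => ?_⟩
    rw [mul_smul, hb' t ht, ha' t ht]
  inv_mem' := by
    rintro a ⟨ha, ha'⟩
    refine ⟨M24.inv_mem ha, fun t ht => ?_⟩
    rw [inv_smul_eq_iff, ha' t ht]

lemma mem_KS {S : Finset (Finset GolayPt)} {g : Equiv.Perm GolayPt} : g ∈ KS S ↔ g ∈ M24 ∧ ∀ t ∈ S, g • t = t := Iff.rfl

/-- The stabiliser permutes the members. -/
def permOfStab (S : Finset (Finset GolayPt)) : ↥(stabilizer M24 S) →* Equiv.Perm ↥S where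
  toFun g :=
    { toFun := fun t => ⟨((g : ↥M24) : Equiv.Perm GolayPt) • (t : Finset GolayPt), by
        have e : ((g : ↥M24) : Equiv.Perm GolayPt) • S = S := mem_stabilizer_iff.1 g.2
        have h := Finset.smul_mem_smul_finset (a := ((g : ↥M24) : Equiv.Perm GolayPt)) t.2
        rwa [e] at h⟩
      invFun := fun t => ⟨(((g : ↥M24) : Equiv.Perm GolayPt))⁻¹ • (t : Finset GolayPt), by
        have e : ((g : ↥M24) : Equiv.Perm GolayPt) • S = S := mem_stabilizer_iff.1 g.2
        have e' : (((g : ↥M24) : Equiv.Perm GolayPt))⁻¹ • S = S := by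
          rw [inv_smul_eq_iff, e]
        have h := Finset.smul_mem_smul_finset (a := (((g : ↥M24) : Equiv.Perm GolayPt))⁻¹) t.2
        rwa [e'] at h⟩
      left_inv := fun t => Subtype.ext (inv_smul_smul _ _)
      right_inv := fun t => Subtype.ext (smul_inv_smul _ _) }
  map_one' := by
    ext1 t
    apply Subtype.ext
    show ((1 : Equiv.Perm GolayPt) • (t : Finset GolayPt)) = _
    rw [one_smul]
    rfl
  map_mul' a b := by
    ext1 t
    apply Subtype.ext
    show (((a : ↥M24) : Equiv.Perm GolayPt) * ((b : ↥M24) : Equiv.Perm GolayPt)) • (t : Finset GolayPt) = _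
    rw [mul_smul]
    rfl

lemma permOfStab_apply (S : Finset (Finset GolayPt)) (g : ↥(stabilizer M24 S)) (t : ↥S) :
    ((permOfStab S g t : ↥S) : Finset GolayPt) = ((g : ↥M24) : Equiv.Perm GolayPt) • (t : Finset GolayPt) := rfl

/-- The size of the stabiliser of a member of a transitive orbit. -/
theorem card_stab_of_trans {S : Finset (Finset GolayPt)} {X : Set (Finset (Finset GolayPt))} (hS : S ∈ X)
    (hinv : ∀ g ∈ M24, ∀ Y ∈ X, g • Y ∈ X) (htr : ∀ Y ∈ X, ∃ k : ↥M24, k • S = Y) {n N : ℕ} (hn : X.ncard = n)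
    (hN : 244823040 = n * N) (hn0 : 0 < n) : Nat.card (stabilizer M24 S) = N := by
  have h1 := card_eq_ncard_mul (⊤ : Subgroup ↥M24) S X (by
    intro y
    constructor
    · intro hy
      obtain ⟨k, hk⟩ := htr y hy
      exact ⟨k, Subgroup.mem_top _, hk⟩
    · rintro ⟨g, -, rfl⟩
      exact hinv g.1 g.2 S hS)
  rw [top_inf_eq, hn, Nat.card_congr (Subgroup.topEquiv (G := ↥M24)).toEquiv, card_M24, hN] at h1
  exact (Nat.eq_of_mul_eq_mul_left hn0 h1).symm

/-- The size of the kernel from the size of the stabiliser, when all permutations are induced. -/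
theorem card_KS_of_perms {S : Finset (Finset GolayPt)} {N K n : ℕ} (hc : S.card = n) (hN : Nat.card (stabilizer M24 S) = N)
    (hN' : N = n.factorial * K)
    (h : ∀ e : Equiv.Perm ↥S, ∃ g ∈ stabilizer M24 S, ∀ t : ↥S, (g : Equiv.Perm GolayPt) • (t : Finset GolayPt) = ((e t : ↥S) : Finset GolayPt)) :
    Nat.card (KS S) = K := by
  classical
  have hsurj : Function.Surjective (permOfStab S) := by
    intro e
    obtain ⟨g, hg, hge⟩ := h e
    refine ⟨⟨g, hg⟩, ?_⟩
    ext1 t
    exact Subtype.ext (hge t)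
  have h1 : Nat.card (permOfStab S).ker = K := by
    have h2 := Subgroup.card_eq_card_quotient_mul_card_subgroup (permOfStab S).ker
    rw [Nat.card_congr (QuotientGroup.quotientKerEquivOfSurjective _ hsurj).toEquiv, hN, hN'] at h2
    have h3 : Nat.card (Equiv.Perm ↥S) = n.factorial := by
      rw [Nat.card_eq_fintype_card, Fintype.card_perm, Fintype.card_coe, hc]
    rw [h3] at h2
    exact (Nat.eq_of_mul_eq_mul_left (Nat.factorial_pos n) h2).symm
  rw [← h1]
  symm
  apply Nat.card_congr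
  exact
    { toFun := fun g => ⟨((g : ↥(stabilizer M24 S)) : ↥M24), by
        refine ⟨(g.1.1).2, fun t ht => ?_⟩
        have := congrArg (fun e : Equiv.Perm ↥S => ((e ⟨t, ht⟩ : ↥S) : Finset GolayPt)) (MonoidHom.mem_ker.1 g.2)
        exact this⟩
      invFun := fun g => ⟨⟨⟨g.1, g.2.1⟩, mem_stabilizer_iff.2 (by
          apply Finset.eq_of_subset_of_card_le
          · intro u hu
            obtain ⟨t, ht, rfl⟩ := Finset.mem_smul_finset.1 hu
            show g.1 • t ∈ S
            rw [g.2.2 t ht]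
            exact ht
          · exact le_of_eq (Finset.card_smul_finset _ _).symm)⟩, by
          apply MonoidHom.mem_ker.2
          ext1 t
          apply Subtype.ext
          exact g.2.2 t t.2⟩
      left_inv := fun g => rfl
      right_inv := fun g => rfl }

/-- The statement form of the size of the kernel. -/
theorem card_kernel_subtype (S : Finset (Finset GolayPt)) :
    Nat.card {g : ↥(stabilizer M24 S) // ∀ t ∈ S, ((g : ↥M24) : Equiv.Perm GolayPt) • t = t} = Nat.card (KS S) := by
  apply Nat.card_congr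
  exact
    { toFun := fun g => ⟨((g.1 : ↥(stabilizer M24 S)) : ↥M24), (g.1.1).2, g.2⟩
      invFun := fun g => ⟨⟨⟨g.1, g.2.1⟩, mem_stabilizer_iff.2 (by
          apply Finset.eq_of_subset_of_card_le
          · intro u hu
            obtain ⟨t, ht, rfl⟩ := Finset.mem_smul_finset.1 hu
            show g.1 • t ∈ S
            rw [g.2.2 t ht]
            exact ht
          · exact le_of_eq (Finset.card_smul_finset _ _).symm)⟩, g.2.2⟩
      left_inv := fun g => rfl
      right_inv := fun g => rfl }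

/-- Conjugation into the kernel of a list. -/
lemma conj_mem_KS {l : List ℕ} {S : Finset (Finset GolayPt)} (k : ↥M24) (hk : k • S = qF l) (g : Equiv.Perm GolayPt) :
    g ∈ KS S ↔ (k : Equiv.Perm GolayPt) * g * (k : Equiv.Perm GolayPt)⁻¹ ∈ SM l := by
  set K : Equiv.Perm GolayPt := (k : Equiv.Perm GolayPt) with hK
  have hKm : K ∈ M24 := k.2
  have hk' : K • S = qF l := hk
  constructor
  · rintro ⟨hg, hgt⟩
    refine ⟨M24.mul_mem (M24.mul_mem hKm hg) (M24.inv_mem hKm), fun m hm => ?_⟩
    have : finOf m ∈ K • S := by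
      rw [hk']
      exact mem_qF.2 ⟨m, hm, rfl⟩
    obtain ⟨t, ht, e⟩ := Finset.mem_smul_finset.1 this
    rw [← e, mul_smul, mul_smul, inv_smul_smul, hgt t ht]
  · rintro ⟨hg, hgm⟩
    refine ⟨?_, fun t ht => ?_⟩
    · have : g = K⁻¹ * (K * g * K⁻¹) * K := by group
      rw [this]
      exact M24.mul_mem (M24.mul_mem (M24.inv_mem hKm) hg) hKm
    · have h1 : K • t ∈ qF l := by
        rw [← hk']
        exact Finset.smul_mem_smul_finset ht
      obtain ⟨m, hm, e⟩ := mem_qF.1 h1
      have h2 := hgm m hm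
      rw [e, mul_smul, mul_smul, inv_smul_smul] at h2
      exact MulAction.injective K h2

end Cfsg.Agent.Lib.M24
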