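/-
The orbits of the stabiliser of the standard trio on the trios.
-/
import Cfsg.Agent.Lib.M24.TrioData

set_option autoImplicit false

namespace Cfsg.Agent.Lib.M24

open Cfsg Cfsg.Agent.Lib.Golay Finset MulAction
open scoped Pointwise

lemma triOK_spec {l : List ℕ} (h : triOK l = true) : ∃ a b c, l = [a, b, c] ∧ a < 2 ^ 24 ∧ b < c ∧ c < 2 ^ 24 ∧
    a.testBit 0 = true ∧ pop a = 8 ∧ pop b = 8 ∧ pop c = 8 ∧ isCodeMask a = true ∧ isCodeMask b = true ∧ isCodeMask c = true ∧
    a &&& b = 0 ∧ a &&& c = 0 ∧ b &&& c = 0 := by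
  match l, h with
  | [a, b, c], h =>
    simp only [triOK, Bool.and_eq_true] at h
    obtain ⟨⟨⟨⟨⟨⟨⟨⟨⟨⟨⟨⟨h1, h2⟩, h3⟩, h4⟩, h5⟩, h6⟩, h7⟩, h8⟩, h9⟩, h10⟩, h11⟩, h12⟩, h13⟩ := h
    exact ⟨a, b, c, rfl, blt_sound h1, blt_sound h2, blt_sound h3, h4, Nat.eq_of_beq_eq_true h5, Nat.eq_of_beq_eq_true h6,
      Nat.eq_of_beq_eq_true h7, h8, h9, h10, Nat.eq_of_beq_eq_true h11, Nat.eq_of_beq_eq_true h12, Nat.eq_of_beq_eq_true h13⟩

lemma disjoint_of_and {a b : ℕ} (h : a &&& b = 0) : Disjoint (finOf a) (finOf b) := by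
  rw [Finset.disjoint_left]
  intro p hp hq
  have : p ∈ finOf (a &&& b) := by
    rw [finOf_and]
    exact mem_inter.2 ⟨hp, hq⟩
  rw [h] at this
  simp [mem_finOf] at this

lemma qF_three (a b c : ℕ) : qF [a, b, c] = {finOf a, finOf b, finOf c} := by
  ext t
  rw [mem_qF]
  simp [eq_comm]

lemma qF_mem_trios {l : List ℕ} (h : triOK l = true) : qF l ∈ trios := by
  obtain ⟨a, b, c, rfl, h1, h2, h3, -, h5, h6, h7, h8, h9, h10, h11, h12, h13⟩ := triOK_spec h
  have hb : b < 2 ^ 24 := h2.trans h3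
  have oa := finOf_octad h1 h8 h5
  have ob := finOf_octad hb h9 h6
  have oc := finOf_octad h3 h10 h7
  have dab := disjoint_of_and h11
  have dac := disjoint_of_and h12
  have dbc := disjoint_of_and h13
  have nab := ne_of_disjoint_octad oa dab
  have nac := ne_of_disjoint_octad oa dac
  have nbc := ne_of_disjoint_octad ob dbc
  rw [qF_three]
  refine ⟨?_, ?_, ?_⟩
  · rw [card_insert_of_notMem, card_pair nbc]
    rw [mem_insert, mem_singleton]
    push Not
    exact ⟨nab, nac⟩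
  · intro o ho
    simp only [mem_insert, mem_singleton] at ho
    rcases ho with rfl | rfl | rfl <;> assumption
  · intro o ho o' ho' hne
    simp only [mem_insert, mem_singleton] at ho ho'
    rcases ho with rfl | rfl | rfl <;> rcases ho' with rfl | rfl | rfl
    · exact absurd rfl hne
    · exact dab
    · exact dac
    · exact dab.symm
    · exact absurd rfl hne
    · exact dbc
    · exact dac.symm
    · exact dbc.symm
    · exact absurd rfl hne

lemma tri_inj : Set.InjOn qF {l | l ∈ triL} := by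
  intro l hl l' hl' e
  have h1 := allL_spec triL_ok l hl
  have h2 := allL_spec triL_ok l' hl'
  apply List.inj_on_of_nodup_map triL_heads hl hl'
  obtain ⟨a, b, c, e1, h3, h4, h5, h6, -, -, -, -, -, -, h11, h12, h13⟩ := triOK_spec h1
  obtain ⟨a', b', c', e2, h3', h4', h5', h6', -, -, -, -, -, -, h11', h12', h13'⟩ := triOK_spec h2
  subst e1 e2
  have hb := h4.trans h5
  have hb' := h4'.trans h5'
  rw [qF_three, qF_three] at e
  have key : ∀ {x y : ℕ}, x < 2 ^ 24 → y < 2 ^ 24 → x &&& y = 0 → x.testBit 0 = true → y.testBit 0 = true → False := by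
    intro x y _ _ h hx hy
    have : (x &&& y).testBit 0 = true := by rw [Nat.testBit_and, hx, hy]; rfl
    rw [h] at this
    simp at this
  have hz : ∀ {x : ℕ}, x &&& 0 = 0 := by simp
  have ma : finOf a ∈ ({finOf a', finOf b', finOf c'} : Finset (Finset GolayPt)) := by
    rw [← e]; simp
  have mb : finOf b ∈ ({finOf a', finOf b', finOf c'} : Finset (Finset GolayPt)) := by
    rw [← e]; simp
  have mb' : finOf b' ∈ ({finOf a, finOf b, finOf c} : Finset (Finset GolayPt)) := by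
    rw [e]; simp
  simp only [mem_insert, mem_singleton] at ma mb mb'
  have eaa : a = a' := by
    rcases ma with h | h | h
    · exact eq_of_finOf_eq h3 h3' h
    · have := eq_of_finOf_eq h3 hb' h
      subst this
      exact (key h3' hb' h11' h6' h6).elim
    · have := eq_of_finOf_eq h3 h5' h
      subst this
      exact (key h3' h5' h12' h6' h6).elim
  subst eaa
  have hne : ∀ {x : ℕ}, a &&& x = 0 → x < 2 ^ 24 → x.testBit 0 = true → False := by
    intro x h hx hx0
    exact key h3 hx h h6 hx0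
  have hz2 : ∀ {x : ℕ}, a &&& x = 0 → x = a → a = 0 := by
    intro x h hx
    subst hx
    simpa using h
  have ha0 : a ≠ 0 := by
    rintro rfl
    simp at h6
  have ebb : b = b' := by
    rcases mb with h | h | h
    · have := eq_of_finOf_eq hb h3 h
      exact absurd (hz2 h11 this) ha0
    · exact eq_of_finOf_eq hb hb' h
    · have e3 := eq_of_finOf_eq hb h5' h
      rcases mb' with h' | h' | h'
      · have := eq_of_finOf_eq hb' h3 h'
        exact absurd (hz2 h11' this) ha0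
      · exact (eq_of_finOf_eq hb' hb h').symm
      · have e4 := eq_of_finOf_eq hb' h5 h'
        omega
  subst ebb
  rfl

/-- The group preserves trios. -/
lemma smul_trio {g : Equiv.Perm GolayPt} (hg : g ∈ M24) {X : Finset (Finset GolayPt)} (hX : X ∈ trios) : g • X ∈ trios := by
  obtain ⟨h1, h2, h3⟩ := hX
  refine ⟨by rw [Finset.card_smul_finset]; exact h1, ?_, ?_⟩
  · intro t ht
    obtain ⟨s, hs, rfl⟩ := Finset.mem_smul_finset.1 ht
    exact smul_octad hg (h2 s hs)
  · intro t ht u hu hne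
    obtain ⟨s, hs, rfl⟩ := Finset.mem_smul_finset.1 ht
    obtain ⟨s', hs', rfl⟩ := Finset.mem_smul_finset.1 hu
    have := h3 s hs s' hs' (fun e => hne (by rw [e]))
    rw [Finset.disjoint_left] at this ⊢
    intro p hp hq
    obtain ⟨x, hx, rfl⟩ := Finset.mem_smul_finset.1 hp
    obtain ⟨y, hy, hxy⟩ := Finset.mem_smul_finset.1 hq
    have e : y = x := by simpa using hxy
    exact this hx (e ▸ hy)

lemma triL_mem_trios {l : List ℕ} (hl : l ∈ triL) : qF l ∈ trios := qF_mem_trios (allL_spec triL_ok l hl)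

lemma triL_nodup : triL.Nodup := List.Nodup.of_map _ triL_heads

theorem trios_eq : trios = qF '' {l | l ∈ triL} := by
  symm
  apply Set.eq_of_subset_of_ncard_le
  · rintro _ ⟨l, hl, rfl⟩
    exact triL_mem_trios hl
  · rw [ncard_trios, ncard_image_qF_gen tri_inj triL_nodup, triL_len]
  · exact Set.toFinite _

lemma exists_list_of_trio {X : Finset (Finset GolayPt)} (hX : X ∈ trios) : ∃ l ∈ triL, X = qF l := by
  rw [trios_eq] at hX
  obtain ⟨l, hl, rfl⟩ := hX
  exact ⟨l, hl, rfl⟩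

lemma t0_nodup : t0.Nodup := by decide +kernel

lemma t0_lt : ∀ u ∈ t0, u < 2 ^ 24 := by decide +kernel

lemma patF_t0 (m : ℕ) : patF (qF t0) (finOf m) = patN t0 m := patF_finOf t0_nodup t0_lt m

/-- The invariant of a trio. -/
noncomputable def clsT (Y : Finset (Finset GolayPt)) : ℕ := ∑ o ∈ Y, patF (qF t0) o

lemma clsT_smul {g : Equiv.Perm GolayPt} (hg : g • qF t0 = qF t0) (Y : Finset (Finset GolayPt)) : clsT (g • Y) = clsT Y := by
  unfold clsT
  rw [Finset.smul_finset_def, Finset.sum_image (fun a _ b _ e => MulAction.injective g e)]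
  exact Finset.sum_congr rfl (fun o _ => patF_smul hg o)

lemma sum_qF (f : Finset GolayPt → ℕ) {l : List ℕ} (hl : l ∈ triL) : ∑ o ∈ qF l, f o = (l.map (fun m => f (finOf m))).sum := by
  obtain ⟨a, b, c, rfl, h3, h4, h5, h6, -, -, -, -, -, -, h11, h12, h13⟩ := triOK_spec (allL_spec triL_ok l hl)
  have hb := h4.trans h5
  have ha0 : a ≠ 0 := by
    rintro rfl
    simp at h6
  have hne : ∀ {x : ℕ}, a &&& x = 0 → x ≠ a := by
    rintro x h rfl
    simp at h
    exact ha0 h
  have hn : ([a, b, c].map finOf).Nodup := by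
    refine List.Nodup.map_on ?_ (by
      simp only [List.nodup_cons, List.mem_cons, List.not_mem_nil, or_false, not_or]
      exact ⟨⟨(hne h11).symm, (hne h12).symm⟩, by omega, by simp, List.nodup_nil⟩)
    intro x hx y hy e
    simp only [List.mem_cons, List.not_mem_nil, or_false] at hx hy
    have hlt : ∀ z, (z = a ∨ z = b ∨ z = c) → z < 2 ^ 24 := by
      rintro z (rfl | rfl | rfl) <;> assumption
    exact eq_of_finOf_eq (hlt x hx) (hlt y hy) e
  unfold qF
  rw [List.sum_toFinset _ hn, List.map_map]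
  rfl

lemma clsT_qF {l : List ℕ} (hl : l ∈ triL) : clsT (qF l) = sumPat l := by
  unfold clsT
  rw [sum_qF _ hl]
  simp only [patF_t0]
  unfold sumPat
  clear hl
  induction l with
  | nil => rfl
  | cons a l ih =>
    rw [List.map_cons, List.sum_cons, ih]
    rfl

lemma pimgT_lt (T m : ℕ) : pimgT T m < 2 ^ 24 := by
  have h : ∀ j x, lookT T j x < 2 ^ 24 := by
    intro j x
    exact lt_of_le_of_lt Nat.and_le_right (by norm_num)
  have ho : ∀ {x y : ℕ}, x < 2 ^ 24 → y < 2 ^ 24 → Nat.lor x y < 2 ^ 24 := fun hx hy => Nat.or_lt_two_pow hx hy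
  exact ho (h _ _) (ho (h _ _) (ho (h _ _) (ho (h _ _) (ho (h _ _) (h _ _)))))

lemma loP_keyP {a b : ℕ} (ha : a < 2 ^ 24) : loP (keyP a b) = a := by
  apply Nat.eq_of_testBit_eq
  intro t
  change ((a ||| (b <<< 24)) &&& 16777215).testBit t = _
  have e : (16777215 : ℕ) = 2 ^ 24 - 1 := by norm_num
  rw [e, Nat.testBit_and, Nat.testBit_two_pow_sub_one, Nat.testBit_or, Nat.testBit_shiftLeft]
  by_cases ht : t < 24
  · simp [ht, show ¬ (24 ≤ t) by omega]
  · have : a.testBit t = false := Nat.testBit_lt_two_pow (lt_of_lt_of_le ha (Nat.pow_le_pow_right (by norm_num) (by omega)))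
    simp [ht, this]

lemma hiP_keyP {a b : ℕ} (ha : a < 2 ^ 24) : hiP (keyP a b) = b := by
  apply Nat.eq_of_testBit_eq
  intro t
  change ((a ||| (b <<< 24)) >>> 24).testBit t = _
  have : a.testBit (24 + t) = false := Nat.testBit_lt_two_pow (lt_of_lt_of_le ha (Nat.pow_le_pow_right (by norm_num) (by omega)))
  rw [Nat.testBit_shiftRight, Nat.testBit_or, Nat.testBit_shiftLeft, this]
  simp

lemma keyP_lt {a b : ℕ} (ha : a < 2 ^ 24) (hb : b < 2 ^ 24) : keyP a b < 2 ^ 48 := by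
  change a ||| (b <<< 24) < 2 ^ 48
  apply Nat.or_lt_two_pow
  · exact lt_of_lt_of_le ha (Nat.pow_le_pow_right (by norm_num) (by norm_num))
  · rw [Nat.shiftLeft_eq]
    calc b * 2 ^ 24 < 2 ^ 24 * 2 ^ 24 := Nat.mul_lt_mul_of_pos_right hb (by norm_num)
      _ = 2 ^ 48 := by norm_num

/-- The search on pairs. -/
theorem reach_pair {H : Subgroup (Equiv.Perm GolayPt)} {Ts : List ℕ} (hT : ∀ T ∈ Ts, TabIn H T)
    {x y : ℕ} (hx : x < 72057594037927935) (hf : inOrbP (orbP Ts x) y = true) :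
    ∃ g ∈ H, g • finOf (loP x) = finOf (loP y) ∧ g • finOf (hiP x) = finOf (hiP y) := by
  refine bfs_sound (w := 56) (mk := 72057594037927935) (hs := hashP) (pf := 64) (act := actP) (gens := Ts) (fuel := 200)
    (P := fun z => ∃ g ∈ H, g • finOf (loP x) = finOf (loP z) ∧ g • finOf (hiP x) = finOf (hiP z)) (fk := 64) (h := hashP y)
    (by norm_num) ?_ ⟨1, H.one_mem, one_smul _ _, one_smul _ _⟩ hx hf
  rintro T hTs z ⟨g, hg, h1, h2⟩
  obtain ⟨h, hh, hhT⟩ := hT T hTs
  refine ⟨h * g, H.mul_mem hh hg, ?_, ?_⟩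
  · rw [mul_smul, h1, hhT]
    show _ = finOf (loP (keyP _ _))
    rw [loP_keyP (pimgT_lt _ _)]
  · rw [mul_smul, h2, hhT]
    show _ = finOf (hiP (keyP _ _))
    rw [hiP_keyP (pimgT_lt _ _)]

lemma hd_lt {l : List ℕ} (hl : l ∈ triL) : ∃ a b c, l = [a, b, c] ∧ a < 2 ^ 24 ∧ b < 2 ^ 24 ∧ c < 2 ^ 24 ∧ a ≠ b := by
  obtain ⟨a, b, c, rfl, h3, h4, h5, h6, -, -, -, -, -, -, h11, h12, h13⟩ := triOK_spec (allL_spec triL_ok l hl)
  refine ⟨a, b, c, rfl, h3, h4.trans h5, h5, ?_⟩
  rintro rfl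
  simp at h11
  subst h11
  simp at h6

lemma mem_lt {l : List ℕ} (hl : l ∈ triL) {m : ℕ} (hm : m ∈ l) : m < 2 ^ 24 := by
  obtain ⟨a, b, c, rfl, h1, h2, h3, -⟩ := hd_lt hl
  simp only [List.mem_cons, List.not_mem_nil, or_false] at hm
  rcases hm with rfl | rfl | rfl <;> assumption

/-- The stabiliser of the standard trio reaches a trio from a pair. -/
theorem qF_reach {r l : List ℕ} {v : ℕ} (hr : r ∈ triL) (hl : l ∈ triL) (hc : trioCheck v r = true) (hv : sumPat l = v) :
    ∃ g ∈ SQ t0, g • qF r = qF l := by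
  unfold trioCheck at hc
  rw [forceN_eq] at hc
  have h1 := whenEq_spec (allL_spec hc l hl) hv
  obtain ⟨a', ha', h2⟩ := List.any_eq_true.1 h1
  obtain ⟨b', hb', h3⟩ := List.any_eq_true.1 h2
  rw [Bool.and_eq_true] at h3
  obtain ⟨h4, h5⟩ := h3
  have hne : a' ≠ b' := by
    rintro rfl
    simp at h4
  obtain ⟨a, b, c, rfl, ha, hb, hc', hab⟩ := hd_lt hr
  have halt := mem_lt hl ha'
  have hblt := mem_lt hl hb'
  have hx : keyP a b < 72057594037927935 := lt_of_lt_of_le (keyP_lt ha hb) (by norm_num)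
  obtain ⟨g, hg, e1, e2⟩ := reach_pair (tabIn_of_gensQ gensT_ok) hx h5
  rw [loP_keyP ha, loP_keyP halt] at e1
  rw [hiP_keyP ha, hiP_keyP halt] at e2
  refine ⟨g, hg, ?_⟩
  have hT1 : g • qF [a, b, c] ∈ trios := smul_trio (mem_SQ.1 hg).1 (triL_mem_trios hr)
  have m1 : finOf a' ∈ g • qF [a, b, c] := by
    rw [← e1]
    exact Finset.smul_mem_smul_finset (mem_qF.2 ⟨a, by simp, rfl⟩)
  have m2 : finOf b' ∈ g • qF [a, b, c] := by
    rw [← e2]
    exact Finset.smul_mem_smul_finset (mem_qF.2 ⟨b, by simp, rfl⟩)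
  have hne' : finOf a' ≠ finOf b' := fun e => hne (eq_of_finOf_eq halt hblt e)
  rw [trio_eq hT1 m1 m2 hne']
  exact (trio_eq (triL_mem_trios hl) (mem_qF.2 ⟨a', ha', rfl⟩) (mem_qF.2 ⟨b', hb', rfl⟩) hne').symm

/-- The list of trios of a given class. -/
noncomputable def filT (v : ℕ) : List (List ℕ) := triL.filter (fun l => Nat.beq (sumPat l) v)

lemma mem_filT {v : ℕ} {l : List ℕ} : l ∈ filT v ↔ l ∈ triL ∧ sumPat l = v := by
  unfold filT
  rw [List.mem_filter]
  exact and_congr_right fun _ => ⟨fun h => Nat.eq_of_beq_eq_true h, fun h => by rw [h]; exact Nat.beq_refl _⟩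

/-- The orbit of a trio under the standard stabiliser. -/
theorem orbit_stdT {r : List ℕ} {v : ℕ} (hr : r ∈ triL) (hv : sumPat r = v) (hc : trioCheck v r = true) :
    orbit (stabilizer M24 (qF t0)) (qF r) = qF '' {l | l ∈ filT v} := by
  ext Y
  constructor
  · rintro ⟨⟨g, hg⟩, rfl⟩
    have h1 : (g : Equiv.Perm GolayPt) • qF r ∈ trios := smul_trio g.2 (triL_mem_trios hr)
    obtain ⟨l', hl', e⟩ := exists_list_of_trio h1
    refine ⟨l', mem_filT.2 ⟨hl', ?_⟩, e.symm⟩
    rw [← clsT_qF hl', ← e, clsT_smul (mem_stabilizer_iff.1 hg), clsT_qF hr, hv]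
  · rintro ⟨l', hl', rfl⟩
    obtain ⟨hl1, hl2⟩ := mem_filT.1 hl'
    obtain ⟨g, hg, hge⟩ := qF_reach hr hl1 hc hl2
    exact ⟨⟨⟨g, (mem_SQ.1 hg).1⟩, mem_stab_of_SQ hg⟩, hge⟩

lemma ncard_filT (v : ℕ) : (qF '' {l | l ∈ filT v}).ncard = (filT v).length := by
  apply ncard_image_qF_gen
  · exact tri_inj.mono (fun l hl => (mem_filT.1 hl).1)
  · exact triL_nodup.filter _

theorem orbit128 : orbit (stabilizer M24 (qF t0)) (qF l128) = qF '' {l | l ∈ filT 128} :=
  orbit_stdT l128_mem l128_cls check128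

theorem orbit96 : orbit (stabilizer M24 (qF t0)) (qF l96) = qF '' {l | l ∈ filT 96} :=
  orbit_stdT l96_mem l96_cls check96

theorem orbit80 : orbit (stabilizer M24 (qF t0)) (qF l80) = qF '' {l | l ∈ filT 80} :=
  orbit_stdT l80_mem l80_cls check80

theorem orbit72 : orbit (stabilizer M24 (qF t0)) (qF l72) = qF '' {l | l ∈ filT 72} :=
  orbit_stdT l72_mem l72_cls check72

/-- The trios by orbits. -/
theorem trios_union : trios = {qF t0} ∪ qF '' {l | l ∈ filT 128} ∪ qF '' {l | l ∈ filT 96} ∪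
    qF '' {l | l ∈ filT 80} ∪ qF '' {l | l ∈ filT 72} := by
  have hok : ∀ v l, l ∈ filT v → qF l ∈ trios := fun v l hl => triL_mem_trios (mem_filT.1 hl).1
  ext Y
  constructor
  · intro hY
    obtain ⟨l, hl, rfl⟩ := exists_list_of_trio hY
    have h := allL_spec triL_cover l hl
    simp only [Bool.or_eq_true] at h
    have hf : ∀ {v : ℕ}, Nat.beq (sumPat l) v = true → l ∈ filT v := fun h => mem_filT.2 ⟨hl, Nat.eq_of_beq_eq_true h⟩
    rcases h with (((h | h) | h) | h) | h
    · rw [eqL_sound h]; simp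
    · exact Or.inl (Or.inl (Or.inl (Or.inr ⟨l, hf h, rfl⟩)))
    · exact Or.inl (Or.inl (Or.inr ⟨l, hf h, rfl⟩))
    · exact Or.inl (Or.inr ⟨l, hf h, rfl⟩)
    · exact Or.inr ⟨l, hf h, rfl⟩
  · rintro ((((h | h) | h) | h) | h)
    · rw [h]; exact triL_mem_trios t0_mem
    · obtain ⟨y, hy, rfl⟩ := h
      exact hok _ _ hy
    · obtain ⟨y, hy, rfl⟩ := h
      exact hok _ _ hy
    · obtain ⟨y, hy, rfl⟩ := h
      exact hok _ _ hy
    · obtain ⟨y, hy, rfl⟩ := h
      exact hok _ _ hy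

/-- The group is transitive on trios. -/
theorem exists_to_t0 {S : Finset (Finset GolayPt)} (hS : S ∈ trios) :
    ∃ k : ↥M24, k • S = qF t0 := by
  classical
  obtain ⟨a0, b0, c0, e0, ha0, hb0, hc0, hab0⟩ := hd_lt t0_mem
  have hh : hd0 t0 = a0 := by rw [e0]; rfl
  have hh2 : hd0 (t0.drop 1) = b0 := by rw [e0]; rfl
  obtain ⟨t, ht⟩ : S.Nonempty := by
    rw [← Finset.card_pos, hS.1]
    norm_num
  have oa : t ∈ octads := hS.2.1 t ht
  have oa0 : finOf a0 ∈ octads := (triL_mem_trios t0_mem).2.1 _ (mem_qF.2 ⟨a0, by rw [e0]; simp, rfl⟩)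
  obtain ⟨g, hg, hge⟩ := exists_smul_octad oa oa0
  have h1 := smul_trio hg hS
  obtain ⟨l, hl, e⟩ := exists_list_of_trio h1
  have m0 : finOf a0 ∈ qF l := by
    rw [← e, ← hge]
    exact Finset.smul_mem_smul_finset ht
  obtain ⟨m, hm, hme⟩ := mem_qF.1 m0
  have hma := eq_of_finOf_eq (mem_lt hl hm) ha0 hme
  subst hma
  have hc := allA_check
  rw [forceN_eq] at hc
  have h2 := allL_spec hc l hl
  rw [Bool.or_eq_true] at h2
  rcases h2 with h2 | h2
  · simp only [Bool.not_eq_true'] at h2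
    have : inL (hd0 t0) l = true := by
      rw [hh]
      exact inL_iff.2 hm
    rw [this] at h2
    exact absurd h2 (by simp)
  · obtain ⟨a, b, c, e1, ha, hb, hc', hab⟩ := hd_lt hl
    have : ∃ b' ∈ l, b' ≠ m := by
      by_cases hb1 : b = m
      · exact ⟨a, by rw [e1]; simp, fun h => hab (h.trans hb1.symm)⟩
      · exact ⟨b, by rw [e1]; simp, hb1⟩
    obtain ⟨b', hb', hne⟩ := this
    have h3 := List.all_eq_true.1 h2 b' hb'
    rw [Bool.or_eq_true] at h3
    rcases h3 with h3 | h3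
    · exact absurd (by rw [← hh] at *; exact Nat.eq_of_beq_eq_true h3) hne
    · have hblt : b0 < 4294967295 := lt_of_lt_of_le hb0 (by norm_num)
      rw [hh2] at h3
      obtain ⟨u, hu, hue⟩ := reach_mask (tabIn_of_gens gensA_ok) hblt h3
      have hu1 : u • finOf m = finOf m := (mem_SM.1 hu).2 m (by rw [hh]; simp)
      refine ⟨⟨u⁻¹ * g, M24.mul_mem (M24.inv_mem (mem_SM.1 hu).1) hg⟩, ?_⟩
      show (u⁻¹ * g) • S = qF t0
      rw [mul_smul, e]
      have hT1 : u⁻¹ • qF l ∈ trios := smul_trio (M24.inv_mem (mem_SM.1 hu).1) (triL_mem_trios hl)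
      have m1 : finOf m ∈ u⁻¹ • qF l := by
        rw [← inv_smul_eq_iff.2 hu1.symm]
        exact Finset.smul_mem_smul_finset m0
      have m2 : finOf b0 ∈ u⁻¹ • qF l := by
        have : finOf b0 = u⁻¹ • finOf b' := by rw [← hue, inv_smul_smul]
        rw [this]
        exact Finset.smul_mem_smul_finset (mem_qF.2 ⟨b', hb', rfl⟩)
      have hne' : finOf m ≠ finOf b0 := fun h => hab0 (eq_of_finOf_eq ha0 hb0 h)
      rw [trio_eq hT1 m1 m2 hne']
      exact (trio_eq (triL_mem_trios t0_mem) (mem_qF.2 ⟨m, by rw [e0]; simp, rfl⟩)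
        (mem_qF.2 ⟨b0, by rw [e0]; simp, rfl⟩) hne').symm

/-- The class of a trio as an index. -/
noncomputable def clsI (Y : Finset (Finset GolayPt)) : ℕ :=
  if clsT Y = 128 then 0 else if clsT Y = 96 then 1 else if clsT Y = 80 then 2 else if clsT Y = 72 then 3 else 4

lemma clsI_lt (Y : Finset (Finset GolayPt)) : clsI Y < 5 := by
  unfold clsI
  split_ifs <;> norm_num

lemma clsI_iff {l : List ℕ} (hl : l ∈ triL) : (clsI (qF l) = 0 ↔ l ∈ filT 128) ∧ (clsI (qF l) = 1 ↔ l ∈ filT 96) ∧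
    (clsI (qF l) = 2 ↔ l ∈ filT 80) ∧ (clsI (qF l) = 3 ↔ l ∈ filT 72) ∧ (clsI (qF l) = 4 ↔ l = t0) := by
  have h := allL_spec triL_cover l hl
  have h2 := allL_spec triL_t0 l hl
  simp only [Bool.or_eq_true, Bool.not_eq_true'] at h h2
  simp only [mem_filT, hl, true_and]
  unfold clsI
  rw [clsT_qF hl]
  have hb : ∀ {v : ℕ}, Nat.beq (sumPat l) v = true → sumPat l = v := fun h => Nat.eq_of_beq_eq_true h
  rcases h with (((h | h) | h) | h) | h
  · rw [eqL_sound h, t0_cls]
    norm_num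
  · have := hb h
    rw [this]
    have hne : l ≠ t0 := by
      rintro rfl
      rw [t0_cls] at this
      omega
    simp [hne]
  · have := hb h
    rw [this]
    have hne : l ≠ t0 := by
      rintro rfl
      rw [t0_cls] at this
      omega
    simp [hne]
  · have := hb h
    rw [this]
    have hne : l ≠ t0 := by
      rintro rfl
      rw [t0_cls] at this
      omega
    simp [hne]
  · have := hb h
    rw [this]
    have hne : l ≠ t0 := by
      rintro rfl
      rw [t0_cls] at this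
      omega
    simp [hne]

/-- Maximality of the standard stabiliser. -/
theorem coatom_t0 : IsCoatom (stabilizer M24 (qF t0)) := by
  have hs00 : qF t0 ∈ trios := triL_mem_trios t0_mem
  have hcl : ∀ (v : ℕ) (w : ℕ), (∀ l, l ∈ triL → (clsI (qF l) = w ↔ l ∈ filT v)) →
      {y | y ∈ trios ∧ clsI y = w}.ncard = (filT v).length := by
    intro v w hvw
    rw [← ncard_filT v]
    congr 1
    ext Y
    constructor
    · rintro ⟨hY, hc⟩
      obtain ⟨l, hl, rfl⟩ := exists_list_of_trio hY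
      exact ⟨l, (hvw l hl).1 hc, rfl⟩
    · rintro ⟨l, hl, rfl⟩
      have h1 := (mem_filT.1 hl).1
      exact ⟨triL_mem_trios h1, (hvw l h1).2 hl⟩
  have hsame : ∀ y ∈ trios, ∀ y' ∈ trios, clsI y = clsI y' → ∃ g ∈ stabilizer M24 (qF t0), g • y = y' := by
    intro y hy y' hy' hc
    obtain ⟨l, hl, rfl⟩ := exists_list_of_trio hy
    obtain ⟨l', hl', rfl⟩ := exists_list_of_trio hy'
    have key : ∀ {x : List ℕ} {v : ℕ}, orbit (stabilizer M24 (qF t0)) (qF x) = qF '' {l | l ∈ filT v} →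
        l ∈ filT v → l' ∈ filT v → ∃ g ∈ stabilizer M24 (qF t0), g • qF l = qF l' := by
      intro x v e h1 h2
      have a1 : qF l ∈ orbit (stabilizer M24 (qF t0)) (qF x) := by
        rw [e]
        exact ⟨l, h1, rfl⟩
      have a2 : qF l' ∈ orbit (stabilizer M24 (qF t0)) (qF x) := by
        rw [e]
        exact ⟨l', h2, rfl⟩
      obtain ⟨⟨g1, hg1⟩, e1⟩ := a1
      obtain ⟨⟨g2, hg2⟩, e2⟩ := a2
      refine ⟨g2 * g1⁻¹, Subgroup.mul_mem _ hg2 (Subgroup.inv_mem _ hg1), ?_⟩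
      have e1' : g1 • qF x = qF l := e1
      have e2' : g2 • qF x = qF l' := e2
      rw [← e1', ← e2', mul_smul, inv_smul_smul]
    have hlt := clsI_lt (qF l)
    obtain ⟨a0, a1, a2, a3, a4⟩ := clsI_iff hl
    obtain ⟨b0, b1, b2, b3, b4⟩ := clsI_iff hl'
    have hcases : clsI (qF l) = 0 ∨ clsI (qF l) = 1 ∨ clsI (qF l) = 2 ∨ clsI (qF l) = 3 ∨ clsI (qF l) = 4 := by omega
    rcases hcases with h | h | h | h | h
    · exact key orbit128 (a0.1 h) (b0.1 (hc ▸ h))
    · exact key orbit96 (a1.1 h) (b1.1 (hc ▸ h))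
    · exact key orbit80 (a2.1 h) (b2.1 (hc ▸ h))
    · exact key orbit72 (a3.1 h) (b3.1 (hc ▸ h))
    · have e1 := a4.1 h
      have e2 := b4.1 (hc ▸ h)
      rw [e1, e2]
      exact ⟨1, Subgroup.one_mem _, one_smul _ _⟩
  have h34 : clsI (qF t0) = 4 := (clsI_iff t0_mem).2.2.2.2.2 rfl
  refine isCoatom_of_classesN (k := 5) (qF t0) trios ?_ clsI (fun y _ => clsI_lt y) ![42, 56, 1008, 2688, 1] ?_ hsame ?_ ?_ 4 ?_ (by decide +kernel)
  · intro y
    constructor
    · intro hy
      obtain ⟨k, hk⟩ := exists_to_t0 hy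
      obtain ⟨k', hk'⟩ : ∃ k' : ↥M24, k' • qF t0 = y := ⟨k⁻¹, by rw [← hk, inv_smul_smul]⟩
      exact ⟨k', hk'⟩
    · rintro ⟨g, rfl⟩
      exact smul_trio g.2 hs00
  · intro i
    fin_cases i
    · show {y | y ∈ trios ∧ clsI y = 0}.ncard = 42
      rw [hcl 128 0 (fun l hl => (clsI_iff hl).1), show (filT 128).length = 42 from count128]
    · show {y | y ∈ trios ∧ clsI y = 1}.ncard = 56
      rw [hcl 96 1 (fun l hl => (clsI_iff hl).2.1), show (filT 96).length = 56 from count96]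
    · show {y | y ∈ trios ∧ clsI y = 2}.ncard = 1008
      rw [hcl 80 2 (fun l hl => (clsI_iff hl).2.2.1), show (filT 80).length = 1008 from count80]
    · show {y | y ∈ trios ∧ clsI y = 3}.ncard = 2688
      rw [hcl 72 3 (fun l hl => (clsI_iff hl).2.2.2.1), show (filT 72).length = 2688 from count72]
    · show {y | y ∈ trios ∧ clsI y = 4}.ncard = 1
      have : {y | y ∈ trios ∧ clsI y = 4} = {qF t0} := by
        ext Y
        constructor
        · rintro ⟨hY, hc⟩
          obtain ⟨l, hl, rfl⟩ := exists_list_of_trio hY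
          rw [(clsI_iff hl).2.2.2.2.1 hc]
          rfl
        · rintro rfl
          exact ⟨hs00, h34⟩
      rw [this, Set.ncard_singleton]
  · intro y hy hc
    obtain ⟨l, hl, rfl⟩ := exists_list_of_trio hy
    rw [h34] at hc
    rw [(clsI_iff hl).2.2.2.2.1 hc]
  · refine ⟨qF l128, triL_mem_trios l128_mem, ?_⟩
    intro e
    have := tri_inj l128_mem t0_mem e
    exact absurd this (by decide +kernel)
  · exact h34.symm

end Cfsg.Agent.Lib.M24
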