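/-
The structure of the stabiliser of a trio: coordinates in which it acts by affine maps
with a common linear part.
-/
import Cfsg.Agent.Lib.M24.TrioOrb
import Cfsg.Agent.Lib.M24.Sextet
import Cfsg.Agent.Lib.PSL23.Norm11

set_option autoImplicit false
set_option maxRecDepth 100000

namespace Cfsg.Agent.Lib.M24.TS

open Cfsg Cfsg.Agent.Lib.Golay Cfsg.Agent.Lib.M24 Finset MulAction Matrix
open scoped Pointwise

/-- The coordinate space. -/
abbrev V := Fin 3 → ZMod 2

/-- The blocks of the points. -/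
def blkL : List ℕ := [0, 0, 0, 0, 0, 2, 1, 0, 2, 2, 0, 1, 0, 1, 1, 2, 1, 1, 1, 1, 2, 2, 2, 2]

/-- The vector codes of the points. -/
def vecL : List ℕ := [0, 3, 5, 7, 2, 0, 0, 1, 3, 4, 6, 1, 4, 2, 4, 2, 6, 5, 3, 7, 7, 6, 5, 1]

/-- The points by block and code. -/
def invRow (k : Fin 3) : List ℕ := ![[0, 7, 4, 1, 12, 2, 10, 3], [6, 11, 13, 18, 14, 17, 16, 19], [5, 23, 15, 8, 9, 22, 21, 20]] k

/-- A vector from a code. -/
def vecOf (n : ℕ) : V := ![((n % 2 : ℕ) : ZMod 2), ((n / 2 % 2 : ℕ) : ZMod 2), ((n / 4 % 2 : ℕ) : ZMod 2)]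

/-- The code of a vector. -/
def codeOf (v : V) : ℕ := (v 0).val + 2 * (v 1).val + 4 * (v 2).val

/-- Block of a point. -/
def blkOf (i : ℕ) : Fin 3 := ⟨lk blkL i % 3, Nat.mod_lt _ (by norm_num)⟩

/-- The coordinates of a point. -/
def cF (p : GolayPt) : Fin 3 × V := (blkOf (idx p), vecOf (lk vecL (idx p)))

/-- The point with given coordinates. -/
def dF (x : Fin 3 × V) : GolayPt := pt (lk (invRow x.1) (codeOf x.2))

lemma dF_cF : ∀ p, dF (cF p) = p := by decide +kernel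

lemma cF_dF : ∀ x, cF (dF x) = x := by decide +kernel

lemma cF_inj : Function.Injective cF := fun a b h => by
  rw [← dF_cF a, ← dF_cF b, h]

/-- Affine maps with a common linear part. -/
def mkF (A : GL (Fin 3) (ZMod 2)) (σ : Equiv.Perm (Fin 3)) (t : Fin 3 → V) (x : Fin 3 × V) : Fin 3 × V :=
  (σ x.1, (A : Matrix (Fin 3) (Fin 3) (ZMod 2)) *ᵥ x.2 + t x.1)

/-- The group of all such maps. -/
def Gam : Subgroup (Equiv.Perm GolayPt) where
  carrier := {g | ∃ A σ t, ∀ p, cF (g p) = mkF A σ t (cF p)}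
  mul_mem' := by
    rintro g g' ⟨A, σ, t, h⟩ ⟨A', σ', t', h'⟩
    refine ⟨A * A', σ * σ', fun k => (A : Matrix (Fin 3) (Fin 3) (ZMod 2)) *ᵥ t' k + t (σ' k), fun p => ?_⟩
    rw [Equiv.Perm.mul_apply, h, h']
    apply Prod.ext
    · rfl
    · simp only [mkF, Units.val_mul, Matrix.mulVec_add, Matrix.mulVec_mulVec, add_assoc]
  one_mem' := ⟨1, 1, 0, fun p => by
    apply Prod.ext
    · rfl
    · simp [mkF]⟩
  inv_mem' := by
    rintro g ⟨A, σ, t, h⟩
    have hA : ((A⁻¹ : GL (Fin 3) (ZMod 2)) : Matrix (Fin 3) (Fin 3) (ZMod 2)) * (A : Matrix (Fin 3) (Fin 3) (ZMod 2)) = 1 := by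
      rw [← Units.val_mul]
      simp
    refine ⟨A⁻¹, σ⁻¹, fun k => -(((A⁻¹ : GL (Fin 3) (ZMod 2)) : Matrix (Fin 3) (Fin 3) (ZMod 2)) *ᵥ t (σ⁻¹ k)), fun p => ?_⟩
    obtain ⟨q, rfl⟩ := g.surjective p
    have h1 : g⁻¹ (g q) = q := by simp
    rw [h1, h q]
    apply Prod.ext
    · simp [mkF]
    · simp only [mkF, Matrix.mulVec_add, Matrix.mulVec_mulVec, hA, Matrix.one_mulVec]
      simp

lemma mem_Gam {g : Equiv.Perm GolayPt} : g ∈ Gam ↔ ∃ A σ t, ∀ p, cF (g p) = mkF A σ t (cF p) := Iff.rfl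

/-- Uniqueness of the linear part and of the permutation of the blocks. -/
theorem mkF_unique {A A' : GL (Fin 3) (ZMod 2)} {σ σ' : Equiv.Perm (Fin 3)} {t t' : Fin 3 → V}
    (h : ∀ x, mkF A σ t x = mkF A' σ' t' x) : A = A' ∧ σ = σ' := by
  constructor
  · apply Units.ext
    apply Matrix.mulVec_injective
    funext v
    have h1 := congrArg Prod.snd (h (0, v))
    have h2 := congrArg Prod.snd (h (0, 0))
    simp only [mkF, Matrix.mulVec_zero, zero_add] at h1 h2
    rw [h2] at h1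
    exact add_right_cancel h1
  · ext k
    have h1 := congrArg Prod.fst (h (k, 0))
    simp only [mkF] at h1
    rw [h1]

lemma forall_cF {P : Fin 3 × V → Prop} (h : ∀ p, P (cF p)) (x : Fin 3 × V) : P x := by
  have := h (dF x)
  rwa [cF_dF] at this

/-- The homomorphism to the linear part and the permutation of blocks. -/
noncomputable def phiF (g : ↥Gam) : GL (Fin 3) (ZMod 2) × Equiv.Perm (Fin 3) :=
  (Classical.choose g.2, Classical.choose (Classical.choose_spec g.2))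

lemma phiF_spec (g : ↥Gam) : ∃ t, ∀ p, cF (g.1 p) = mkF (phiF g).1 (phiF g).2 t (cF p) :=
  Classical.choose_spec (Classical.choose_spec g.2)

lemma phiF_eq {g : ↥Gam} {A : GL (Fin 3) (ZMod 2)} {σ : Equiv.Perm (Fin 3)} {t : Fin 3 → V}
    (h : ∀ p, cF (g.1 p) = mkF A σ t (cF p)) : phiF g = (A, σ) := by
  obtain ⟨t', ht'⟩ := phiF_spec g
  have h1 := mkF_unique (A := (phiF g).1) (σ := (phiF g).2) (t := t') (A' := A) (σ' := σ) (t' := t)
    (forall_cF (fun p => by rw [← ht' p, h p]))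
  exact Prod.ext h1.1 h1.2

/-- The homomorphism. -/
noncomputable def phi : ↥Gam →* GL (Fin 3) (ZMod 2) × Equiv.Perm (Fin 3) :=
  MonoidHom.mk' phiF (by
    intro g g'
    obtain ⟨t, ht⟩ := phiF_spec g
    obtain ⟨t', ht'⟩ := phiF_spec g'
    apply phiF_eq (t := fun k => (((phiF g).1 : GL (Fin 3) (ZMod 2)) : Matrix (Fin 3) (Fin 3) (ZMod 2)) *ᵥ t' k + t ((phiF g').2 k))
    intro p
    change cF (g.1 (g'.1 p)) = _
    rw [ht, ht']
    apply Prod.ext
    · rfl
    · simp only [mkF, Prod.fst_mul, Units.val_mul, Matrix.mulVec_add, Matrix.mulVec_mulVec, add_assoc])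

lemma phi_apply (g : ↥Gam) : phi g = phiF g := rfl

/-- Elements of the kernel are involutions. -/
theorem sq_of_phi_one {g : ↥Gam} (h : phi g = 1) : g.1 * g.1 = 1 := by
  obtain ⟨t, ht⟩ := phiF_spec g
  rw [← phi_apply, h] at ht
  apply Equiv.ext
  intro p
  apply cF_inj
  rw [Equiv.Perm.mul_apply, ht, ht]
  apply Prod.ext
  · rfl
  · simp only [mkF, Prod.fst_one, Prod.snd_one, Units.val_one, Matrix.one_mulVec, Equiv.Perm.one_apply]
    rw [add_assoc]
    have : ∀ w : V, w + w = 0 := fun w => by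
      funext i
      exact CharTwo.add_self_eq_zero (w i)
    rw [this, add_zero]

/-- The group with the code. -/
def Kg : Subgroup (Equiv.Perm GolayPt) := Gam ⊓ M24

lemma mem_Kg_of_list {l : List ℕ} {A : GL (Fin 3) (ZMod 2)} {σ : Equiv.Perm (Fin 3)} {t : Fin 3 → V}
    (h1 : isPerm l = true) (h2 : autCheck l = true) (h3 : ∀ p, cF (lp l p) = mkF A σ t (cF p)) :
    perm l ∈ Kg := by
  refine Subgroup.mem_inf.2 ⟨⟨A, σ, t, fun p => ?_⟩, perm_mem_M24 h1 h2⟩
  rw [perm_apply h1]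
  exact h3 p

/-- The homomorphism on the group with the code. -/
noncomputable def phiK : ↥Kg →* GL (Fin 3) (ZMod 2) × Equiv.Perm (Fin 3) :=
  phi.comp (Subgroup.inclusion inf_le_left)

lemma phiK_eq {g : ↥Kg} {A : GL (Fin 3) (ZMod 2)} {σ : Equiv.Perm (Fin 3)} {t : Fin 3 → V}
    (h : ∀ p, cF (g.1 p) = mkF A σ t (cF p)) : phiK g = (A, σ) :=
  phiF_eq (g := ⟨g.1, (Subgroup.mem_inf.1 g.2).1⟩) h

/-- The transvections as group elements. -/
def tvGL (i j : Fin 3) (hij : i ≠ j) : GL (Fin 3) (ZMod 2) :=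
  ⟨Matrix.transvection i j 1, Matrix.transvection i j (-1),
    by rw [Matrix.transvection_mul_transvection_same _ _ hij, add_neg_cancel, Matrix.transvection_zero],
    by rw [Matrix.transvection_mul_transvection_same _ _ hij, neg_add_cancel, Matrix.transvection_zero]⟩

/-- The translations of a lift. -/
def T01 : Fin 3 → V := ![vecOf 0, vecOf 0, vecOf 5]

/-- The translations of a lift. -/
def T02 : Fin 3 → V := ![vecOf 0, vecOf 0, vecOf 2]

/-- The translations of a lift. -/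
def T10 : Fin 3 → V := ![vecOf 0, vecOf 0, vecOf 4]

/-- The translations of a lift. -/
def T12 : Fin 3 → V := ![vecOf 0, vecOf 0, vecOf 3]

/-- The translations of a lift. -/
def T20 : Fin 3 → V := ![vecOf 0, vecOf 0, vecOf 6]

/-- The translations of a lift. -/
def T21 : Fin 3 → V := ![vecOf 0, vecOf 0, vecOf 1]

/-- The translations of a lift. -/
def S01 : Fin 3 → V := ![vecOf 0, vecOf 0, vecOf 0]

/-- The translations of a lift. -/
def S02 : Fin 3 → V := ![vecOf 0, vecOf 0, vecOf 0]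

/-- The translations of a lift. -/
def S12 : Fin 3 → V := ![vecOf 0, vecOf 0, vecOf 0]

/-- A lift of a transvection. -/
def lT01 : List ℕ := [0, 4, 2, 10, 1, 22, 6, 7, 20, 23, 3, 11, 12, 18, 14, 21, 19, 17, 13, 16, 8, 15, 5, 9]

lemma lT01_perm : isPerm lT01 = true := by decide +kernel

lemma lT01_aut : autCheck lT01 = true := by decide +kernel

lemma lT01_spec : ∀ p : GolayPt, cF (lp lT01 p) = mkF (tvGL 0 1 (by decide)) 1 ![vecOf 0, vecOf 0, vecOf 5] (cF p) := by decide +kernel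

lemma lT01_mem : perm lT01 ∈ Kg :=
  mem_Kg_of_list lT01_perm lT01_aut lT01_spec

/-- A lift of a transvection. -/
def lT02 : List ℕ := [0, 1, 12, 10, 4, 15, 6, 7, 23, 20, 3, 11, 2, 13, 17, 5, 19, 14, 18, 16, 9, 22, 21, 8]

lemma lT02_perm : isPerm lT02 = true := by decide +kernel

lemma lT02_aut : autCheck lT02 = true := by decide +kernel

lemma lT02_spec : ∀ p : GolayPt, cF (lp lT02 p) = mkF (tvGL 0 2 (by decide)) 1 ![vecOf 0, vecOf 0, vecOf 2] (cF p) := by decide +kernel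

lemma lT02_mem : perm lT02 ∈ Kg :=
  mem_Kg_of_list lT02_perm lT02_aut lT02_spec

/-- A lift of a transvection. -/
def lT10 : List ℕ := [0, 7, 3, 2, 4, 9, 6, 1, 22, 5, 10, 18, 12, 13, 14, 21, 16, 19, 11, 17, 23, 15, 8, 20]

lemma lT10_perm : isPerm lT10 = true := by decide +kernel

lemma lT10_aut : autCheck lT10 = true := by decide +kernel

lemma lT10_spec : ∀ p : GolayPt, cF (lp lT10 p) = mkF (tvGL 1 0 (by decide)) 1 ![vecOf 0, vecOf 0, vecOf 4] (cF p) := by decide +kernel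

lemma lT10_mem : perm lT10 ∈ Kg :=
  mem_Kg_of_list lT10_perm lT10_aut lT10_spec

/-- A lift of a transvection. -/
def lT12 : List ℕ := [0, 1, 3, 2, 4, 8, 6, 7, 5, 22, 12, 11, 10, 13, 16, 23, 14, 19, 18, 17, 21, 20, 9, 15]

lemma lT12_perm : isPerm lT12 = true := by decide +kernel

lemma lT12_aut : autCheck lT12 = true := by decide +kernel

lemma lT12_spec : ∀ p : GolayPt, cF (lp lT12 p) = mkF (tvGL 1 2 (by decide)) 1 ![vecOf 0, vecOf 0, vecOf 3] (cF p) := by decide +kernel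

lemma lT12_mem : perm lT12 ∈ Kg :=
  mem_Kg_of_list lT12_perm lT12_aut lT12_spec

/-- A lift of a transvection. -/
def lT20 : List ℕ := [0, 3, 7, 1, 4, 21, 6, 2, 23, 15, 10, 17, 12, 13, 14, 9, 16, 11, 19, 18, 22, 5, 20, 8]

lemma lT20_perm : isPerm lT20 = true := by decide +kernel

lemma lT20_aut : autCheck lT20 = true := by decide +kernel

lemma lT20_spec : ∀ p : GolayPt, cF (lp lT20 p) = mkF (tvGL 2 0 (by decide)) 1 ![vecOf 0, vecOf 0, vecOf 6] (cF p) := by decide +kernel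

lemma lT20_mem : perm lT20 ∈ Kg :=
  mem_Kg_of_list lT20_perm lT20_aut lT20_spec

/-- A lift of a transvection. -/
def lT21 : List ℕ := [0, 3, 2, 1, 10, 23, 6, 7, 21, 22, 4, 11, 12, 16, 14, 20, 13, 17, 19, 18, 15, 8, 9, 5]

lemma lT21_perm : isPerm lT21 = true := by decide +kernel

lemma lT21_aut : autCheck lT21 = true := by decide +kernel

lemma lT21_spec : ∀ p : GolayPt, cF (lp lT21 p) = mkF (tvGL 2 1 (by decide)) 1 ![vecOf 0, vecOf 0, vecOf 1] (cF p) := by decide +kernel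

lemma lT21_mem : perm lT21 ∈ Kg :=
  mem_Kg_of_list lT21_perm lT21_aut lT21_spec

/-- A lift of a transposition of the blocks. -/
def lS01 : List ℕ := [6, 18, 17, 19, 13, 5, 0, 11, 8, 9, 16, 7, 14, 4, 12, 15, 10, 2, 1, 3, 20, 21, 22, 23]

lemma lS01_perm : isPerm lS01 = true := by decide +kernel

lemma lS01_aut : autCheck lS01 = true := by decide +kernel

lemma lS01_spec : ∀ p : GolayPt, cF (lp lS01 p) = mkF 1 (Equiv.swap 0 1) ![vecOf 0, vecOf 0, vecOf 0] (cF p) := by decide +kernel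

lemma lS01_mem : perm lS01 ∈ Kg :=
  mem_Kg_of_list lS01_perm lS01_aut lS01_spec

/-- A lift of a transposition of the blocks. -/
def lS02 : List ℕ := [5, 8, 22, 20, 15, 0, 6, 23, 1, 12, 21, 11, 9, 13, 14, 4, 16, 17, 18, 19, 3, 10, 2, 7]

lemma lS02_perm : isPerm lS02 = true := by decide +kernel

lemma lS02_aut : autCheck lS02 = true := by decide +kernel

lemma lS02_spec : ∀ p : GolayPt, cF (lp lS02 p) = mkF 1 (Equiv.swap 0 2) ![vecOf 0, vecOf 0, vecOf 0] (cF p) := by decide +kernel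

lemma lS02_mem : perm lS02 ∈ Kg :=
  mem_Kg_of_list lS02_perm lS02_aut lS02_spec

/-- A lift of a transposition of the blocks. -/
def lS12 : List ℕ := [0, 1, 2, 3, 4, 6, 5, 7, 18, 14, 10, 23, 12, 15, 9, 13, 21, 22, 8, 20, 19, 16, 17, 11]

lemma lS12_perm : isPerm lS12 = true := by decide +kernel

lemma lS12_aut : autCheck lS12 = true := by decide +kernel

lemma lS12_spec : ∀ p : GolayPt, cF (lp lS12 p) = mkF 1 (Equiv.swap 1 2) ![vecOf 0, vecOf 0, vecOf 0] (cF p) := by decide +kernel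

lemma lS12_mem : perm lS12 ∈ Kg :=
  mem_Kg_of_list lS12_perm lS12_aut lS12_spec

/-- A lift is known for all the linear parts. -/
theorem lift_linear (A : GL (Fin 3) (ZMod 2)) : ∃ g : ↥Kg, phiK g = (A, 1) := by
  have hdet : (A : Matrix (Fin 3) (Fin 3) (ZMod 2)).det ≠ 0 := by
    have := (Matrix.isUnit_iff_isUnit_det _).1 A.isUnit
    exact this.ne_zero
  have key : ∃ A' : GL (Fin 3) (ZMod 2), (A' : Matrix (Fin 3) (Fin 3) (ZMod 2)) = (A : Matrix (Fin 3) (Fin 3) (ZMod 2)) ∧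
      ∃ g : ↥Kg, phiK g = (A', 1) := by
    refine Matrix.diagonal_transvection_induction_of_det_ne_zero
      (fun M => ∃ A' : GL (Fin 3) (ZMod 2), (A' : Matrix (Fin 3) (Fin 3) (ZMod 2)) = M ∧ ∃ g : ↥Kg, phiK g = (A', 1))
      (A : Matrix (Fin 3) (Fin 3) (ZMod 2)) hdet ?_ ?_ ?_
    · intro D hD
      refine ⟨1, ?_, 1, by rw [map_one]; rfl⟩
      have h1 : ∀ i, D i = 1 := by
        intro i
        rw [Matrix.det_diagonal] at hD
        have h2 := Finset.prod_ne_zero_iff.1 hD i (mem_univ _)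
        generalize D i = x at h2
        revert x
        decide
      have h2 : D = fun _ => 1 := funext h1
      rw [h2]
      simp
    · rintro ⟨i, j, hij, c⟩
      have hc : c = 0 ∨ c = 1 := by
        revert c
        decide
      rcases hc with rfl | rfl
      · refine ⟨1, ?_, 1, by rw [map_one]; rfl⟩
        simp [Matrix.TransvectionStruct.toMatrix]
      · have hmain : ∃ g : ↥Kg, phiK g = (tvGL i j hij, 1) := by
          revert i j
          intro i j hij
          fin_cases i <;> fin_cases j <;> first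
            | exact absurd rfl hij
            | skip
          · exact ⟨⟨_, lT01_mem⟩, phiK_eq (t := T01) (fun p => by rw [perm_apply lT01_perm]; exact lT01_spec p)⟩
          · exact ⟨⟨_, lT02_mem⟩, phiK_eq (t := T02) (fun p => by rw [perm_apply lT02_perm]; exact lT02_spec p)⟩
          · exact ⟨⟨_, lT10_mem⟩, phiK_eq (t := T10) (fun p => by rw [perm_apply lT10_perm]; exact lT10_spec p)⟩
          · exact ⟨⟨_, lT12_mem⟩, phiK_eq (t := T12) (fun p => by rw [perm_apply lT12_perm]; exact lT12_spec p)⟩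
          · exact ⟨⟨_, lT20_mem⟩, phiK_eq (t := T20) (fun p => by rw [perm_apply lT20_perm]; exact lT20_spec p)⟩
          · exact ⟨⟨_, lT21_mem⟩, phiK_eq (t := T21) (fun p => by rw [perm_apply lT21_perm]; exact lT21_spec p)⟩
        exact ⟨tvGL i j hij, rfl, hmain⟩
    · rintro M M' - - ⟨A1, e1, g1, h1⟩ ⟨A2, e2, g2, h2⟩
      refine ⟨A1 * A2, by rw [Units.val_mul, e1, e2], g1 * g2, ?_⟩
      rw [map_mul, h1, h2]
      rfl
  obtain ⟨A', e, g, hg⟩ := key
  have : A' = A := Units.ext e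
  exact ⟨g, this ▸ hg⟩

/-- A lift is known for all the permutations of blocks. -/
theorem lift_perm (σ : Equiv.Perm (Fin 3)) : ∃ g : ↥Kg, phiK g = (1, σ) := by
  refine Equiv.Perm.swap_induction_on σ ⟨1, by rw [map_one]; rfl⟩ ?_
  rintro f x y hxy ⟨g, hg⟩
  have hmain : ∃ g' : ↥Kg, phiK g' = (1, Equiv.swap x y) := by
    revert x y
    intro x y hxy
    fin_cases x <;> fin_cases y <;> first
      | exact absurd rfl hxy
      | skip
    · exact ⟨⟨_, lS01_mem⟩, phiK_eq (t := S01) (fun p => by rw [perm_apply lS01_perm]; exact lS01_spec p)⟩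
    · exact ⟨⟨_, lS02_mem⟩, phiK_eq (t := S02) (fun p => by rw [perm_apply lS02_perm]; exact lS02_spec p)⟩
    · refine ⟨⟨_, lS01_mem⟩, ?_⟩
      rw [Equiv.swap_comm]
      exact phiK_eq (t := S01) (fun p => by rw [perm_apply lS01_perm]; exact lS01_spec p)
    · exact ⟨⟨_, lS12_mem⟩, phiK_eq (t := S12) (fun p => by rw [perm_apply lS12_perm]; exact lS12_spec p)⟩
    · refine ⟨⟨_, lS02_mem⟩, ?_⟩
      rw [Equiv.swap_comm]
      exact phiK_eq (t := S02) (fun p => by rw [perm_apply lS02_perm]; exact lS02_spec p)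
    · refine ⟨⟨_, lS12_mem⟩, ?_⟩
      rw [Equiv.swap_comm]
      exact phiK_eq (t := S12) (fun p => by rw [perm_apply lS12_perm]; exact lS12_spec p)
  obtain ⟨g', hg'⟩ := hmain
  refine ⟨g' * g, ?_⟩
  rw [map_mul, hg', hg]
  simp [Prod.mk_mul_mk]

theorem phiK_surj : Function.Surjective phiK := by
  rintro ⟨A, σ⟩
  obtain ⟨g, hg⟩ := lift_linear A
  obtain ⟨g', hg'⟩ := lift_perm σ
  refine ⟨g * g', ?_⟩
  rw [map_mul, hg, hg']
  simp

/-- The translation by the data `a`, `b`. -/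
def mkT (a b : V) (x : Fin 3 × V) : Fin 3 × V := (x.1, x.2 + ![a, b, a + b] x.1)

/-- The list of a translation. -/
def tl (a b : V) : List ℕ := (List.range 24).map fun i => idx (dF (mkT a b (cF (pt i))))

lemma tl_ok : ∀ a b : V, (isPerm (tl a b) && autCheck (tl a b)) = true := by decide +kernel

lemma tl_perm (a b : V) : isPerm (tl a b) = true := by
  have := tl_ok a b
  simp only [Bool.and_eq_true] at this
  exact this.1

lemma tl_aut (a b : V) : autCheck (tl a b) = true := by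
  have := tl_ok a b
  simp only [Bool.and_eq_true] at this
  exact this.2

lemma lk_range : ∀ i : Fin 24, lk (List.range 24) i = i := by decide +kernel

lemma lk_tl (a b : V) (p : GolayPt) : lk (tl a b) (idx p) = idx (dF (mkT a b (cF p))) := by
  have hi := idx_lt p
  rw [tl, Cfsg.Agent.Lib.PSL23.lk_map_aux _ _ (by simpa using hi), lk_range ⟨idx p, hi⟩]
  simp only [pt_idx]

lemma tl_spec (a b : V) (p : GolayPt) : cF (perm (tl a b) p) = mkF 1 1 ![a, b, a + b] (cF p) := by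
  rw [perm_apply (tl_perm a b), Cfsg.Agent.Lib.Golay.lp, lk_tl, pt_idx, cF_dF]
  apply Prod.ext
  · rfl
  · simp [mkT, mkF]

lemma tl_mem (a b : V) : perm (tl a b) ∈ Kg :=
  Subgroup.mem_inf.2 ⟨⟨1, 1, _, tl_spec a b⟩, perm_mem_M24 (tl_perm a b) (tl_aut a b)⟩

lemma tl_ker (a b : V) : (⟨perm (tl a b), tl_mem a b⟩ : ↥Kg) ∈ phiK.ker := by
  rw [MonoidHom.mem_ker]
  exact phiK_eq (tl_spec a b)

theorem le_card_ker : 64 ≤ Nat.card phiK.ker := by
  let f : V × V → phiK.ker := fun x => ⟨⟨perm (tl x.1 x.2), tl_mem x.1 x.2⟩, tl_ker x.1 x.2⟩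
  have hf : Function.Injective f := by
    rintro ⟨a, b⟩ ⟨a', b'⟩ h
    have h1 : perm (tl a b) = perm (tl a' b') := congrArg (fun z : phiK.ker => z.1.1) h
    have h2 : ∀ x, mkF 1 1 ![a, b, a + b] x = mkF 1 1 ![a', b', a' + b'] x := by
      apply forall_cF
      intro p
      rw [← tl_spec, ← tl_spec, h1]
    have h3 : ∀ k : Fin 3, (![a, b, a + b] : Fin 3 → V) k = (![a', b', a' + b'] : Fin 3 → V) k := by
      intro k
      have := congrArg Prod.snd (h2 (k, 0))
      simpa [mkF] using this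
    have h4 := h3 0
    have h5 := h3 1
    simp only [Matrix.cons_val_zero, Matrix.cons_val_one] at h4 h5
    rw [h4, h5]
  have h1 := Nat.card_le_card_of_injective f hf
  have h2 : Nat.card (V × V) = 64 := by
    rw [Nat.card_prod, Nat.card_eq_fintype_card, Fintype.card_fun, ZMod.card, Fintype.card_fin]
    norm_num
  rwa [h2] at h1

theorem card_target : Nat.card (GL (Fin 3) (ZMod 2) × Equiv.Perm (Fin 3)) = 1008 := by
  have : Fact (Nat.Prime 2) := ⟨by norm_num⟩
  rw [Nat.card_prod, Matrix.card_GL_field, Nat.card_eq_fintype_card (α := Equiv.Perm (Fin 3)),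
    Fintype.card_perm, Fintype.card_fin, ZMod.card]
  decide

theorem card_Kg_ge : 64512 ≤ Nat.card Kg := by
  have h1 := Subgroup.card_mul_index phiK.ker
  rw [Subgroup.index_ker, MonoidHom.range_eq_top.2 phiK_surj, Subgroup.card_top, card_target] at h1
  have h2 := le_card_ker
  omega

/-- The blocks. -/
def Ob (k : Fin 3) : Finset GolayPt := univ.filter fun p => (cF p).1 = k

lemma Ob_card : ∀ k, (Ob k).card = 8 := by decide +kernel

lemma qF_t0 : qF t0 = univ.image Ob := by decide +kernel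

lemma Ob_inj : Function.Injective Ob := by decide +kernel

lemma smul_Ob {g : Equiv.Perm GolayPt} {A : GL (Fin 3) (ZMod 2)} {σ : Equiv.Perm (Fin 3)} {t : Fin 3 → V}
    (h : ∀ p, cF (g p) = mkF A σ t (cF p)) (k : Fin 3) : g • Ob k = Ob (σ k) := by
  apply smul_eq_of_maps _ (by rw [Ob_card, Ob_card])
  intro x hx
  have hx' : (cF x).1 = k := (mem_filter.1 hx).2
  refine mem_filter.2 ⟨mem_univ _, ?_⟩
  rw [h x, ← hx']
  rfl

lemma smul_t0 {g : Equiv.Perm GolayPt} (hg : g ∈ Gam) : g • qF t0 = qF t0 := by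
  obtain ⟨A, σ, t, h⟩ := hg
  rw [qF_t0]
  ext X
  simp only [Finset.mem_smul_finset, mem_image, mem_univ, true_and]
  constructor
  · rintro ⟨Y, ⟨k, rfl⟩, rfl⟩
    exact ⟨σ k, (smul_Ob h k).symm⟩
  · rintro ⟨k, rfl⟩
    exact ⟨Ob (σ⁻¹ k), ⟨_, rfl⟩, by rw [smul_Ob h]; simp⟩

/-- The stabiliser in the group of permutations. -/
def Sp : Subgroup (Equiv.Perm GolayPt) := (stabilizer M24 (qF t0)).map M24.subtype

theorem card_stab_t0 : Nat.card (stabilizer M24 (qF t0)) = 64512 := by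
  have h1 : orbit ↥M24 (qF t0) = trios := by
    ext Y
    constructor
    · rintro ⟨k, rfl⟩
      exact smul_trio k.2 (triL_mem_trios t0_mem)
    · intro hY
      obtain ⟨k, hk⟩ := exists_to_t0 hY
      refine ⟨k⁻¹, ?_⟩
      rw [← hk]
      simp
  have h2 := index_stabilizer ↥M24 (qF t0)
  rw [h1, ncard_trios] at h2
  have h3 := Subgroup.card_mul_index (stabilizer ↥M24 (qF t0))
  rw [h2, card_M24] at h3
  omega

theorem Kg_le_Sp : Kg ≤ Sp := by
  intro g hg
  obtain ⟨h1, h2⟩ := Subgroup.mem_inf.1 hg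
  exact ⟨⟨g, h2⟩, smul_t0 h1, rfl⟩

theorem Kg_eq_Sp : Kg = Sp := by
  apply Subgroup.eq_of_le_of_card_ge Kg_le_Sp
  have h1 : Nat.card Sp = Nat.card (stabilizer M24 (qF t0)) :=
    Subgroup.card_map_of_injective Subtype.val_injective
  rw [h1, card_stab_t0]
  exact card_Kg_ge

/-- The inclusion of the stabiliser. -/
noncomputable def incS : ↥(stabilizer M24 (qF t0)) →* ↥Kg :=
  MonoidHom.mk' (fun g => ⟨g.1.1, by
    rw [Kg_eq_Sp]
    exact ⟨g.1, g.2, rfl⟩⟩) (fun _ _ => rfl)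

theorem incS_surj : Function.Surjective incS := by
  rintro ⟨g, hg⟩
  have h1 := hg
  rw [Kg_eq_Sp] at h1
  obtain ⟨x, hx, rfl⟩ := h1
  exact ⟨⟨x, hx⟩, rfl⟩

/-- The homomorphism on the stabiliser of the standard trio. -/
noncomputable def phi0 : ↥(stabilizer M24 (qF t0)) →* GL (Fin 3) (ZMod 2) × Equiv.Perm (Fin 3) :=
  phiK.comp incS

theorem phi0_surj : Function.Surjective phi0 := phiK_surj.comp incS_surj

theorem sq_of_phi0 {x : ↥(stabilizer M24 (qF t0))} (h : phi0 x = 1) : x * x = 1 := by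
  have h1 : phi (⟨(incS x).1, (Subgroup.mem_inf.1 (incS x).2).1⟩ : ↥Gam) = 1 := h
  have h2 := sq_of_phi_one h1
  apply Subtype.ext
  apply Subtype.ext
  exact h2

/-- The main structure theorem. -/
theorem main_trio (T : Finset (Finset GolayPt)) (hT : T ∈ trios) :
    (∀ e : Equiv.Perm ↥T, ∃ g ∈ stabilizer M24 T, ∀ o : ↥T,
      (g : Equiv.Perm GolayPt) • (o : Finset GolayPt) = ((e o : ↥T) : Finset GolayPt)) ∧
    ∃ (N : Subgroup ↥(stabilizer M24 T)) (_ : N.Normal), Nat.card N = 64 ∧ (∀ x ∈ N, x * x = 1) ∧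
      Nonempty (↥(stabilizer M24 T) ⧸ N ≃* GL (Fin 3) (ZMod 2) × Equiv.Perm (Fin 3)) := by
  classical
  obtain ⟨k, hk⟩ := exists_to_t0 hT
  let iso : stabilizer ↥M24 T ≃* stabilizer ↥M24 (qF t0) := stabilizerEquivStabilizer hk.symm
  let Φ : ↥(stabilizer M24 T) →* GL (Fin 3) (ZMod 2) × Equiv.Perm (Fin 3) := phi0.comp iso.toMonoidHom
  have hΦ : Function.Surjective Φ := phi0_surj.comp iso.surjective
  constructor
  · intro e
    -- transport to the blocks
    have hmemO : ∀ i, Ob i ∈ qF t0 := fun i => by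
      rw [qF_t0]
      exact mem_image_of_mem _ (mem_univ _)
    have hT1 : ∀ i, k⁻¹ • Ob i ∈ T := by
      intro i
      have h1 := hmemO i
      rw [← hk] at h1
      obtain ⟨Y, hY, e1⟩ := Finset.mem_smul_finset.1 h1
      rw [← e1, inv_smul_smul]
      exact hY
    have hT2 : ∀ o : ↥T, ∃ i, k • o.1 = Ob i := by
      intro o
      have h1 : k • o.1 ∈ qF t0 := by
        rw [← hk]
        exact Finset.smul_mem_smul_finset o.2
      rw [qF_t0] at h1
      obtain ⟨i, -, hi⟩ := mem_image.1 h1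
      exact ⟨i, hi.symm⟩
    let E0 : Fin 3 → ↥T := fun i => ⟨k⁻¹ • Ob i, hT1 i⟩
    have hE0 : Function.Bijective E0 := by
      constructor
      · intro i j hij
        have h1 : k⁻¹ • Ob i = k⁻¹ • Ob j := congrArg Subtype.val hij
        exact Ob_inj (smul_left_cancel _ h1)
      · intro o
        obtain ⟨i, hi⟩ := hT2 o
        refine ⟨i, Subtype.ext ?_⟩
        show k⁻¹ • Ob i = o.1
        rw [← hi, inv_smul_smul]
    let E : Fin 3 ≃ ↥T := Equiv.ofBijective E0 hE0
    let σ : Equiv.Perm (Fin 3) := E.symm.permCongr e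
    obtain ⟨g0, hg0⟩ := lift_perm σ
    have hg0' : ∀ i, g0.1 • Ob i = Ob (σ i) := by
      obtain ⟨t, ht⟩ := phiF_spec (⟨g0.1, (Subgroup.mem_inf.1 g0.2).1⟩ : ↥Gam)
      have h1 : phiF (⟨g0.1, (Subgroup.mem_inf.1 g0.2).1⟩ : ↥Gam) = (1, σ) := hg0
      rw [h1] at ht
      exact fun i => smul_Ob ht i
    have hg0M : g0.1 ∈ M24 := (Subgroup.mem_inf.1 g0.2).2
    have hg0T : g0.1 • qF t0 = qF t0 := smul_t0 (Subgroup.mem_inf.1 g0.2).1
    let g1 : ↥M24 := k⁻¹ * ⟨g0.1, hg0M⟩ * k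
    refine ⟨g1, ?_, ?_⟩
    · rw [mem_stabilizer_iff]
      have hsm : ∀ X : Finset (Finset GolayPt), (⟨g0.1, hg0M⟩ : ↥M24) • X = g0.1 • X := fun _ => rfl
      simp only [g1]
      rw [mul_smul, mul_smul, hk, hsm, hg0T, ← hk, inv_smul_smul]
    · intro o
      obtain ⟨i, rfl⟩ := E.surjective o
      have h1 : k • (E i).1 = Ob i := by
        show k • (k⁻¹ • Ob i) = Ob i
        rw [smul_inv_smul]
      have h2 : e (E i) = E (σ i) := by
        simp [σ, Equiv.permCongr_apply]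
      rw [h2]
      have e1 : ((g1 : ↥M24) : Equiv.Perm GolayPt) = ((k⁻¹ : ↥M24) : Equiv.Perm GolayPt) * g0.1 * (k : Equiv.Perm GolayPt) := rfl
      have h1' : (k : Equiv.Perm GolayPt) • (E i).1 = Ob i := h1
      rw [e1, mul_smul, mul_smul, h1', hg0']
      rfl
  · refine ⟨Φ.ker, inferInstance, ?_, ?_, ⟨QuotientGroup.quotientKerEquivOfSurjective Φ hΦ⟩⟩
    · have h1 := Subgroup.card_mul_index Φ.ker
      rw [Subgroup.index_ker, MonoidHom.range_eq_top.2 hΦ, Subgroup.card_top, card_target] at h1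
      have h2 : Nat.card (stabilizer M24 T) = Nat.card (stabilizer M24 (qF t0)) := Nat.card_congr iso.toEquiv
      rw [h2, card_stab_t0] at h1
      omega
    · intro x hx
      have h1 : phi0 (iso x) = 1 := hx
      have h2 := sq_of_phi0 h1
      apply iso.injective
      rw [map_mul, h2, map_one]

end Cfsg.Agent.Lib.M24.TS
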